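import Mathlib

/-!
Generic simplicity lemmas for transitive groups with the parameters that occur in the
Rudvalis point model: degree 40-style group of order 7800, degree 2304 group of order
17971200, degree 4060 group of order 145926144000.
-/

namespace Cfsg.Agent.RuModel.Abs

open MulAction

section Generic

variable {G : Type*} [Group G] {X : Type*} [MulAction G X]

/-- A normal subgroup fixing one point of a faithful transitive action is trivial. -/
theorem eq_bot_of_fix [FaithfulSMul G X] [IsPretransitive G X] (N : Subgroup G) [hN : N.Normal]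
    (x0 : X) (h : ∀ n ∈ N, n • x0 = x0) : N = ⊥ := by
  rw [Subgroup.eq_bot_iff_forall]
  intro n hn
  apply eq_of_smul_eq_smul (α := X)
  intro x
  obtain ⟨g, rfl⟩ := exists_smul_eq G x0 x
  have h1 := h _ (hN.conj_mem n hn g⁻¹)
  rw [inv_inv, mul_smul, mul_smul, inv_smul_eq_iff] at h1
  rw [h1, one_smul]

/-- The orbit of a normal subgroup through `x0` is invariant under the stabiliser of `x0`. -/
theorem orbit_stab_invariant (N : Subgroup G) [hN : N.Normal] (x0 : X) {g : G}
    (hg : g • x0 = x0) {x : X} (hx : x ∈ orbit N x0) : g • x ∈ orbit N x0 := by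
  obtain ⟨⟨n, hn⟩, rfl⟩ := hx
  refine ⟨⟨g * n * g⁻¹, hN.conj_mem n hn g⟩, ?_⟩
  show (g * n * g⁻¹) • x0 = g • (n • x0)
  rw [mul_smul, mul_smul, inv_smul_eq_iff.mpr hg.symm]

/-- A transitive normal subgroup containing a point stabiliser is everything. -/
theorem eq_top_of_transitive (N : Subgroup G) (x0 : X) (ho : orbit N x0 = Set.univ)
    (hs : stabilizer G x0 ≤ N) : N = ⊤ := by
  rw [Subgroup.eq_top_iff']
  intro g
  obtain ⟨⟨n, hn⟩, hng⟩ : g • x0 ∈ orbit N x0 := ho ▸ Set.mem_univ _
  have h1 : n⁻¹ * g ∈ N := hs (by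
    show (n⁻¹ * g) • x0 = x0
    rw [mul_smul, ← hng]
    exact inv_smul_smul n x0)
  simpa using N.mul_mem hn h1

/-- Order of a transitive subgroup. -/
theorem card_of_orbit_univ [Finite G] (N : Subgroup G) (x0 : X) (ho : orbit N x0 = Set.univ) :
    Nat.card N = Nat.card X * Nat.card (N ⊓ stabilizer G x0 : Subgroup G) := by
  have hne : Nonempty N := ⟨1⟩
  haveI : IsPretransitive N X := by
    refine ⟨fun a b => ?_⟩
    have hb : b ∈ orbit N x0 := ho ▸ Set.mem_univ b
    have ha : a ∈ orbit N x0 := ho ▸ Set.mem_univ a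
    obtain ⟨n, rfl⟩ := ha
    obtain ⟨m, rfl⟩ := hb
    exact ⟨m * n⁻¹, by show (m * n⁻¹) • n • x0 = m • x0; rw [mul_smul, inv_smul_smul]⟩
  have h1 := (stabilizer N x0).card_mul_index
  rw [index_stabilizer_of_transitive] at h1
  rw [← h1, mul_comm]
  congr 1
  refine Nat.card_congr
    { toFun := fun n => ⟨n.1.1, ⟨n.1.2, n.2⟩⟩
      invFun := fun n => ⟨⟨n.1, n.2.1⟩, n.2.2⟩
      left_inv := fun n => rfl
      right_inv := fun n => rfl }

/-- An element of prime order whose order is coprime to the index of a normal subgroup lies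
in it. -/
theorem mem_of_coprime_index [Finite G] (N : Subgroup G) [N.Normal] {g : G}
    (h : Nat.Coprime (orderOf g) N.index) : g ∈ N := by
  rw [← QuotientGroup.eq_one_iff (N := N) g, ← orderOf_eq_one_iff]
  refine Nat.eq_one_of_dvd_coprimes h (orderOf_map_dvd (QuotientGroup.mk' N) g) ?_
  rw [Subgroup.index_eq_card]
  exact orderOf_dvd_natCard _

end Generic

theorem arith_H {m k n : ℕ} (hmk : m * k = 600) (h3 : 3 ∣ k) (hn : n ∣ k) (hn1 : n % 13 = 1)
    (hne : n ≠ 1) : m < 13 := by
  have key : ∀ n ∈ Finset.range 601, n ∣ 600 → n % 13 = 1 → n = 1 ∨ n = 40 ∨ n = 300 := by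
    decide +kernel
  have hd : n ∣ 600 := hmk ▸ Dvd.dvd.mul_left hn m
  have hle : n ≤ 600 := Nat.le_of_dvd (by norm_num) hd
  obtain ⟨j, rfl⟩ := hn
  rcases key n (Finset.mem_range.mpr (by omega)) hd hn1 with h | h | h
  · exact absurd h hne
  · subst h
    have h15 : m * j = 15 := by
      have : 40 * (m * j) = 40 * 15 := by rw [show 40 * (m * j) = m * (40 * j) by ring, hmk]
      omega
    have hm : m ∣ 15 := ⟨j, h15.symm⟩
    have : m ≤ 15 := Nat.le_of_dvd (by norm_num) hm
    by_contra hlt
    interval_cases m <;> omega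
  · subst h
    have h2 : m * j = 2 := by
      have : 300 * (m * j) = 300 * 2 := by rw [show 300 * (m * j) = m * (300 * j) by ring, hmk]
      omega
    have : m ≤ 2 := Nat.le_of_dvd (by norm_num) ⟨j, h2.symm⟩
    omega

/-- (A) A group of order 7800 with the given generators and fixed-point data is simple. -/
theorem H_simple {G : Type*} [Group G] [Finite G] {X : Type*} [MulAction G X] [FaithfulSMul G X]
    [IsPretransitive G X] (hG : Nat.card G = 7800) (h1 h2 : G) (o1 : orderOf h1 = 13)
    (o2 : orderOf h2 = 3) (hgen1 : Subgroup.closure {h1, h2 * h1 * h2⁻¹} = ⊤)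
    (hgen2 : Subgroup.closure {h2, h1 * h2 * h1⁻¹} = ⊤) (x0 : X)
    (hfix : ∀ x : X, h1 • x = x ↔ x = x0) : IsSimpleGroup G := by
  haveI : Nontrivial G := Finite.one_lt_card_iff_nontrivial.mp (by omega)
  refine { eq_bot_or_eq_top_of_normal := fun N hN => ?_ }
  haveI := hN
  have hmi : Nat.card N * N.index = 7800 := hG ▸ N.card_mul_index
  by_cases hh1 : h1 ∈ N
  · right
    rw [eq_top_iff, ← hgen1, Subgroup.closure_le]
    rintro g (rfl | rfl)
    · exact hh1
    · exact hN.conj_mem _ hh1 _
  by_cases hh2 : h2 ∈ N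
  · right
    rw [eq_top_iff, ← hgen2, Subgroup.closure_le]
    rintro g (rfl | rfl)
    · exact hh2
    · exact hN.conj_mem _ hh2 _
  left
  have h13 : (13 : ℕ).Prime := by norm_num
  have h13i : 13 ∣ N.index := by
    by_contra h
    exact hh1 (mem_of_coprime_index N (o1 ▸ h13.coprime_iff_not_dvd.mpr h))
  have h3i : 3 ∣ N.index := by
    by_contra h
    exact hh2 (mem_of_coprime_index N (o2 ▸ Nat.prime_three.coprime_iff_not_dvd.mpr h))
  obtain ⟨k, hk⟩ := h13i
  have hk3 : 3 ∣ k := (Nat.Coprime.dvd_mul_left (show Nat.Coprime 3 13 by norm_num)).mp (hk ▸ h3i)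
  have hmk : Nat.card N * k = 600 := by
    rw [hk, show Nat.card N * (13 * k) = 13 * (Nat.card N * k) by ring] at hmi
    omega
  haveI : Fact (Nat.Prime 13) := ⟨h13⟩
  -- the Sylow 13-subgroups of the quotient
  set π := QuotientGroup.mk' N with hπ
  have hQ : Nat.card (G ⧸ N) = 13 * k := by rw [← hk, Subgroup.index_eq_card]
  let P : Sylow 13 (G ⧸ N) := default
  have hnotk : ¬ 13 ∣ k := by
    intro h
    have : 13 ∣ Nat.card N * k := Dvd.dvd.mul_left h _
    rw [hmk] at this
    norm_num at this
  have hPcard : Nat.card P = 13 := by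
    have hf : (13 * k).factorization 13 = 1 := by
      have hk0 : k ≠ 0 := by rintro rfl; simp at hmk
      rw [Nat.factorization_mul (by norm_num) hk0, Finsupp.add_apply,
        Nat.Prime.factorization_self h13, Nat.factorization_eq_zero_of_not_dvd hnotk]
    rw [P.card_eq_multiplicity, hQ, hf, pow_one]
  have hPindex : (P : Subgroup (G ⧸ N)).index = k := by
    have h := (P : Subgroup (G ⧸ N)).card_mul_index
    rw [hPcard, hQ] at h
    omega
  set n := Nat.card (Sylow 13 (G ⧸ N)) with hn
  have hn_dvd : n ∣ k := hPindex ▸ P.card_dvd_index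
  have hn_mod : n % 13 = 1 := card_sylow_modEq_one 13 (G ⧸ N)
  have hn_ne : n ≠ 1 := by
    intro h1'
    haveI : Subsingleton (Sylow 13 (G ⧸ N)) := (Nat.card_eq_one_iff_unique.mp h1').1
    have hmem : ∀ g : G, orderOf g = 13 → π g ∈ (P : Subgroup (G ⧸ N)) := by
      intro g hg
      have hp : IsPGroup 13 (Subgroup.zpowers (π g)) := by
        have hd : orderOf (π g) ∣ 13 := hg ▸ orderOf_map_dvd π g
        rcases (Nat.dvd_prime h13).mp hd with h | h
        · exact IsPGroup.of_card (n := 0) (by rw [Nat.card_zpowers, h, pow_zero])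
        · exact IsPGroup.of_card (n := 1) (by rw [Nat.card_zpowers, h, pow_one])
      obtain ⟨R, hR⟩ := hp.exists_le_sylow
      exact (Subsingleton.elim R P) ▸ hR (Subgroup.mem_zpowers _)
    have hle : (Subgroup.closure {h1, h2 * h1 * h2⁻¹}) ≤ (P : Subgroup (G ⧸ N)).comap π := by
      rw [Subgroup.closure_le]
      rintro g (rfl | rfl)
      · exact hmem g o1
      · exact hmem _ (by
          rw [← o1]; exact orderOf_injective (MulAut.conj h2).toMonoidHom (MulAut.conj h2).injective h1)
    rw [hgen1] at hle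
    have hall : (P : Subgroup (G ⧸ N)) = ⊤ := by
      rw [Subgroup.eq_top_iff']
      intro q
      obtain ⟨g, rfl⟩ := QuotientGroup.mk'_surjective N q
      exact hle (Subgroup.mem_top g)
    rw [hall, Subgroup.index_top] at hPindex
    omega
  have hm : Nat.card N < 13 := arith_H hmk hk3 hn_dvd hn_mod hn_ne
  -- `h1` centralises `N`
  have hcomm : ∀ n ∈ N, h1 * n * h1⁻¹ = n := by
    let c : Equiv.Perm N := MulAut.toPerm N (MulAut.conjNormal h1)
    have hc13 : c ^ 13 = 1 := by
      have h' : (MulAut.conjNormal h1 : MulAut N) ^ 13 = 1 := by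
        rw [← map_pow, show h1 ^ 13 = 1 from o1 ▸ pow_orderOf_eq_one h1, map_one]
      simp only [c, ← map_pow]
      rw [show h1 ^ 13 = 1 from o1 ▸ pow_orderOf_eq_one h1, map_one, map_one]
    have hc1 : c = 1 := by
      rw [← orderOf_eq_one_iff]
      rcases (Nat.dvd_prime h13).mp (orderOf_dvd_of_pow_eq_one hc13) with h | h
      · exact h
      · exfalso
        have h' : orderOf c ∣ Nat.card (Equiv.Perm N) := orderOf_dvd_natCard c
        rw [Nat.card_perm, h, h13.dvd_factorial] at h'
        omega
    intro m hmN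
    have := congrArg (fun e : Equiv.Perm N => ((e ⟨m, hmN⟩ : N) : G)) hc1
    have h2' : ((MulAut.conjNormal h1 ⟨m, hmN⟩ : N) : G) = m := this
    rwa [MulAut.conjNormal_apply] at h2'
  apply eq_bot_of_fix N x0
  intro m hmN
  rw [← hfix]
  calc h1 • m • x0 = (h1 * m * h1⁻¹) • h1 • x0 := by rw [← mul_smul, ← mul_smul, inv_mul_cancel_right]
    _ = m • x0 := by rw [hcomm m hmN, (hfix x0).mpr rfl]

/-- A permutation action of a group generated by an element of order 13 on fewer than 13 points
is trivial. -/
theorem conj_sylow_fixed {G : Type*} [Group G] [Finite G] (N : Subgroup G) [N.Normal] (h : G)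
    (oh : orderOf h = 13) {p : ℕ} [Fact p.Prime] (hlt : Nat.card (Sylow p N) < 13) (P : Sylow p N)
    (x : N) (hx : x ∈ P) : MulAut.conjNormal h x ∈ P := by
  let c : Equiv.Perm (Sylow p N) := MulAction.toPermHom (MulAut N) (Sylow p N) (MulAut.conjNormal h)
  have h13 : (13 : ℕ).Prime := by norm_num
  have hc13 : c ^ 13 = 1 := by
    simp only [c, ← map_pow, show h ^ 13 = 1 from oh ▸ pow_orderOf_eq_one h, map_one]
  have hc1 : c = 1 := by
    rw [← orderOf_eq_one_iff]
    rcases (Nat.dvd_prime h13).mp (orderOf_dvd_of_pow_eq_one hc13) with h' | h'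
    · exact h'
    · exfalso
      have h'' : orderOf c ∣ Nat.card (Equiv.Perm (Sylow p N)) := orderOf_dvd_natCard c
      rw [Nat.card_perm, h', h13.dvd_factorial] at h''
      omega
  have hP : (MulAut.conjNormal h : MulAut N) • P = P := by
    have := congrArg (fun e : Equiv.Perm (Sylow p N) => e P) hc1
    exact this
  have hmem : (MulAut.conjNormal h : MulAut N) • x ∈
      ((MulAut.conjNormal h : MulAut N) • P : Sylow p N) :=
    Set.smul_mem_smul_set (s := (P : Set N)) hx
  rwa [hP] at hmem

/-- (B) A transitive group of degree 2304 and order 17971200 is simple. -/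
theorem T_simple {G : Type*} [Group G] [Finite G] {X : Type*} [MulAction G X] [FaithfulSMul G X]
    [IsPretransitive G X] (hX : Nat.card X = 2304) (hG : Nat.card G = 17971200) (x0 : X)
    (hH : IsSimpleGroup (stabilizer G x0)) (hHcard : Nat.card (stabilizer G x0) = 7800)
    (h1 : G) (h1H : h1 ∈ stabilizer G x0) (o1 : orderOf h1 = 13)
    (hfix : {x : X | h1 • x = x}.ncard ≤ 3)
    (hprim : ∀ B : Set X, x0 ∈ B → (∀ g ∈ stabilizer G x0, ∀ x ∈ B, g • x ∈ B) →
      B.ncard ∣ 2304 → B = {x0} ∨ B = Set.univ) : IsSimpleGroup G := by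
  haveI : Nontrivial G := Finite.one_lt_card_iff_nontrivial.mp (by omega)
  haveI : Finite X := Nat.finite_of_card_ne_zero (by omega)
  refine { eq_bot_or_eq_top_of_normal := fun N hN => ?_ }
  haveI := hN
  set H := stabilizer G x0 with hHdef
  rcases hprim (orbit N x0) (mem_orbit_self x0) (fun g hg x hx => orbit_stab_invariant N x0 hg hx)
    (hX ▸ (IsBlock.orbit_of_normal x0).ncard_dvd_card ⟨x0, mem_orbit_self x0⟩) with hB | hB
  · left
    refine eq_bot_of_fix N x0 fun n hn => ?_
    have : n • x0 ∈ orbit N x0 := ⟨⟨n, hn⟩, rfl⟩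
    rw [hB] at this
    exact this
  rcases (inferInstance : (N.subgroupOf H).Normal).eq_bot_or_eq_top with hI | hI
  · exfalso
    have hinf : N ⊓ H = ⊥ := disjoint_iff.mp (Subgroup.subgroupOf_eq_bot.mp hI)
    have hN2304 : Nat.card N = 2304 := by
      rw [card_of_orbit_univ N x0 hB, ← hHdef, hinf, Subgroup.card_bot, mul_one, hX]
    haveI : Fact (Nat.Prime 2) := ⟨Nat.prime_two⟩
    let P : Sylow 2 N := default
    have hPcard : Nat.card P = 256 := by
      rw [P.card_eq_multiplicity, hN2304, show (2304 : ℕ) = 2 ^ 8 * 9 by norm_num,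
        Nat.factorization_mul (by norm_num) (by norm_num), Nat.factorization_pow]
      rw [Finsupp.add_apply, Finsupp.smul_apply, Nat.Prime.factorization_self Nat.prime_two,
        Nat.factorization_eq_zero_of_not_dvd (show ¬ 2 ∣ 9 by norm_num)]
      norm_num
    have hlt : Nat.card (Sylow 2 N) < 13 := by
      have h := P.card_dvd_index
      have hidx : (P : Subgroup N).index = 9 := by
        have := (P : Subgroup N).card_mul_index
        rw [hN2304, hPcard] at this
        omega
      rw [hidx] at h
      have := Nat.le_of_dvd (by norm_num) h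
      omega
    let Q : Subgroup G := (P : Subgroup N).map N.subtype
    have hQcard : Nat.card Q = 256 := by
      rw [Subgroup.card_map_of_injective N.subtype_injective, hPcard]
    have hQN : Q ≤ N := Subgroup.map_subtype_le _
    have hQinv : ∀ q ∈ Q, h1 * q * h1⁻¹ ∈ Q := by
      rintro q ⟨x, hx, rfl⟩
      exact ⟨MulAut.conjNormal h1 x, conj_sylow_fixed N h1 o1 hlt P x hx, by simp [MulAut.conjNormal_apply]⟩
    -- the set `Q x0` has 256 points and is invariant under `h1`
    let Z := Subgroup.zpowers h1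
    let S : SubMulAction Z X :=
      { carrier := (fun q : G => q • x0) '' (Q : Set G)
        smul_mem' := by
          rintro ⟨z, hz⟩ x ⟨q, hq, rfl⟩
          have hzfix : z • x0 = x0 := (Subgroup.zpowers_le.mpr h1H : Z ≤ H) hz
          refine ⟨z * q * z⁻¹, ?_, ?_⟩
          · obtain ⟨i, rfl⟩ := (Submonoid.mem_powers_iff _ _).mp (mem_powers_iff_mem_zpowers.mpr hz)
            clear hz hzfix
            induction i with
            | zero => simpa using hq
            | succ i ih =>
              have := hQinv _ ih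
              simpa [pow_succ', mul_assoc] using this
          · show (z * q * z⁻¹) • x0 = z • (q • x0)
            rw [mul_smul, mul_smul, inv_smul_eq_iff.mpr hzfix.symm] }
    have hinj : Set.InjOn (fun q : G => q • x0) (Q : Set G) := by
      intro a ha b hb hab
      have hmem : b⁻¹ * a ∈ N ⊓ H := ⟨N.mul_mem (N.inv_mem (hQN hb)) (hQN ha), by
        show (b⁻¹ * a) • x0 = x0
        rw [mul_smul, show a • x0 = b • x0 from hab, inv_smul_smul]⟩
      rw [hinf, Subgroup.mem_bot, inv_mul_eq_one] at hmem
      exact hmem.symm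
    have hScard : Nat.card S = 256 := by
      show Nat.card ((fun q : G => q • x0) '' (Q : Set G)) = 256
      rw [Nat.card_image_of_injOn hinj]
      exact hQcard
    have hZ : IsPGroup 13 Z := IsPGroup.of_card (n := 1) (by rw [Nat.card_zpowers, o1, pow_one])
    haveI : Fact (Nat.Prime 13) := ⟨by norm_num⟩
    have hmod := hZ.card_modEq_card_fixedPoints S
    rw [hScard] at hmod
    have hle : Nat.card (fixedPoints Z S) ≤ 3 := by
      refine le_trans ?_ hfix
      rw [← Nat.card_coe_set_eq]
      refine Nat.card_le_card_of_injective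
        (fun s => (⟨(s.1 : X), congrArg Subtype.val (s.2 ⟨h1, Subgroup.mem_zpowers h1⟩)⟩ :
          {x : X | h1 • x = x})) ?_
      intro a b hab
      exact Subtype.ext (Subtype.ext (congrArg (fun t : {x : X | h1 • x = x} => (t : X)) hab))
    have : 256 % 13 = Nat.card (fixedPoints Z S) % 13 := hmod
    omega
  · right
    exact eq_top_of_transitive N x0 hB (Subgroup.subgroupOf_eq_top.mp hI)

theorem arith_K {n : ℕ} (h1 : n ∣ 280) (h2 : n % 29 = 1) : n = 1 := by
  have key : ∀ n ∈ Finset.range 281, n ∣ 280 → n % 29 = 1 → n = 1 := by decide +kernel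
  exact key n (Finset.mem_range.mpr (by have := Nat.le_of_dvd (by norm_num) h1; omega)) h1 h2

/-- (C) A transitive group of degree 4060 and order 145926144000 is simple. -/
theorem K_simple {G : Type*} [Group G] [Finite G] {Y : Type*} [MulAction G Y] [FaithfulSMul G Y]
    [IsPretransitive G Y] (hY : Nat.card Y = 4060) (hG : Nat.card G = 145926144000) (y0 : Y)
    (T : Subgroup G) (hTS : T ≤ stabilizer G y0) (hTcard : Nat.card T = 17971200)
    (hT : IsSimpleGroup T)
    (hprim : ∀ B : Set Y, y0 ∈ B → (∀ g ∈ T, ∀ y ∈ B, g • y ∈ B) →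
      B.ncard ∣ 4060 → B = {y0} ∨ B = Set.univ)
    (p q : G) (hp : Odd (orderOf p)) (hq : Odd (orderOf q)) (hpq : p * q ∈ stabilizer G y0)
    (hpqT : p * q ∉ T) : IsSimpleGroup G := by
  haveI : Nontrivial G := Finite.one_lt_card_iff_nontrivial.mp (by omega)
  haveI : Finite Y := Nat.finite_of_card_ne_zero (by omega)
  refine { eq_bot_or_eq_top_of_normal := fun N hN => ?_ }
  haveI := hN
  set S := stabilizer G y0 with hSdef
  have hScard : Nat.card S = 35942400 := by
    have h := S.card_mul_index
    rw [hSdef, index_stabilizer_of_transitive, hY, hG, ← hSdef] at h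
    omega
  have trans_or : ∀ (M : Subgroup G), M.Normal → orbit M y0 = Set.univ ∨ M = ⊥ := by
    intro M hM
    haveI := hM
    rcases hprim (orbit M y0) (mem_orbit_self y0)
      (fun g hg y hy => orbit_stab_invariant M y0 (hTS hg) hy)
      (hY ▸ (IsBlock.orbit_of_normal y0).ncard_dvd_card ⟨y0, mem_orbit_self y0⟩) with hB | hB
    · right
      refine eq_bot_of_fix M y0 fun n hn => ?_
      have : n • y0 ∈ orbit M y0 := ⟨⟨n, hn⟩, rfl⟩
      rw [hB] at this
      exact this
    · left; exact hB
  rcases trans_or N hN with hB | hB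
  swap
  · left; exact hB
  have hNcard := card_of_orbit_univ N y0 hB
  rw [hY, ← hSdef] at hNcard
  rcases (inferInstance : (N.subgroupOf T).Normal).eq_bot_or_eq_top with hI | hI
  · exfalso
    have hinf : N ⊓ T = ⊥ := disjoint_iff.mp (Subgroup.subgroupOf_eq_bot.mp hI)
    have hle : Nat.card (N ⊓ S : Subgroup G) * Nat.card T ≤ Nat.card S := by
      rw [← Nat.card_prod]
      refine Nat.card_le_card_of_injective
        (fun x => (⟨x.1.1 * x.2.1, S.mul_mem x.1.2.2 (hTS x.2.2)⟩ : S)) ?_
      rintro ⟨⟨a, ha⟩, ⟨b, hb⟩⟩ ⟨⟨a', ha'⟩, ⟨b', hb'⟩⟩ h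
      have h' : a * b = a' * b' := congrArg Subtype.val h
      have hmem : a'⁻¹ * a ∈ N ⊓ T := ⟨N.mul_mem (N.inv_mem ha'.1) ha.1, by
        rw [show a'⁻¹ * a = b' * b⁻¹ by
          rw [eq_mul_inv_iff_mul_eq, mul_assoc, h', inv_mul_cancel_left]]
        exact T.mul_mem hb' (T.inv_mem hb)⟩
      rw [hinf, Subgroup.mem_bot, inv_mul_eq_one] at hmem
      subst hmem
      have : b = b' := mul_left_cancel h'
      subst this
      rfl
    rw [hTcard, hScard] at hle
    have hr : Nat.card (N ⊓ S : Subgroup G) = 1 ∨ Nat.card (N ⊓ S : Subgroup G) = 2 := by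
      have hpos : 0 < Nat.card (N ⊓ S : Subgroup G) := Nat.card_pos
      omega
    haveI : Fact (Nat.Prime 29) := ⟨by norm_num⟩
    let P : Sylow 29 N := default
    have hPcard : Nat.card P = 29 := by
      rw [P.card_eq_multiplicity, hNcard]
      rcases hr with hr | hr <;> rw [hr]
      · rw [show 4060 * 1 = 29 * 140 by norm_num, Nat.factorization_mul (by norm_num) (by norm_num),
          Finsupp.add_apply, Nat.Prime.factorization_self (by norm_num),
          Nat.factorization_eq_zero_of_not_dvd (show ¬ 29 ∣ 140 by norm_num)]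
        norm_num
      · rw [show 4060 * 2 = 29 * 280 by norm_num, Nat.factorization_mul (by norm_num) (by norm_num),
          Finsupp.add_apply, Nat.Prime.factorization_self (by norm_num),
          Nat.factorization_eq_zero_of_not_dvd (show ¬ 29 ∣ 280 by norm_num)]
        norm_num
    have hn : Nat.card (Sylow 29 N) = 1 := by
      apply arith_K
      · refine dvd_trans P.card_dvd_index ?_
        have h := (P : Subgroup N).card_mul_index
        rw [hPcard, hNcard] at h
        rcases hr with hr | hr <;> rw [hr] at h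
        · exact ⟨2, by omega⟩
        · exact ⟨1, by omega⟩
      · exact card_sylow_modEq_one 29 N
    haveI : Subsingleton (Sylow 29 N) := (Nat.card_eq_one_iff_unique.mp hn).1
    haveI : (P : Subgroup N).Characteristic := P.characteristic_of_subsingleton
    let M : Subgroup G := (P : Subgroup N).map N.subtype
    have hM : M.Normal := inferInstance
    have hMcard : Nat.card M = 29 := by
      rw [Subgroup.card_map_of_injective N.subtype_injective, hPcard]
    rcases trans_or M hM with h | h
    · have := card_of_orbit_univ M y0 h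
      rw [hMcard, hY] at this
      have hpos : 0 < Nat.card (M ⊓ stabilizer G y0 : Subgroup G) := Nat.card_pos
      omega
    · rw [h, Subgroup.card_bot] at hMcard
      omega
  · right
    have hTN : T ≤ N := Subgroup.subgroupOf_eq_top.mp hI
    have hTle : T ≤ N ⊓ S := le_inf hTN hTS
    have h1 : Nat.card (N ⊓ S : Subgroup G) ∣ 35942400 :=
      hScard ▸ Subgroup.card_dvd_of_le inf_le_right
    have h2 : 17971200 ∣ Nat.card (N ⊓ S : Subgroup G) := hTcard ▸ Subgroup.card_dvd_of_le hTle
    have hidx : N.index ∣ 2 := by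
      obtain ⟨c, hc⟩ := h2
      refine ⟨c, ?_⟩
      exact Nat.eq_of_mul_eq_mul_left (show 0 < 4060 * 17971200 by norm_num) (by
          have h := N.card_mul_index
          rw [hNcard, hc, hG] at h
          calc 4060 * 17971200 * 2 = 4060 * (17971200 * c) * N.index := by rw [h]
            _ = 4060 * 17971200 * (N.index * c) := by ring)
    have hodd : ∀ g : G, Odd (orderOf g) → g ∈ N := fun g hg =>
      mem_of_coprime_index N ((Nat.coprime_two_right.mpr hg).coprime_dvd_right hidx)
    have hlt : Nat.card T < Nat.card (N ⊓ S : Subgroup G) := by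
      refine lt_of_le_of_ne (Subgroup.card_le_of_le hTle) fun heq => hpqT ?_
      rw [Subgroup.eq_of_le_of_card_ge hTle heq.ge]
      exact ⟨N.mul_mem (hodd p hp) (hodd q hq), hpq⟩
    have hSN : S ≤ N := by
      have : Nat.card S ≤ Nat.card (N ⊓ S : Subgroup G) := by
        obtain ⟨c, hc⟩ := h2
        rw [hScard, hc]
        rw [hTcard, hc] at hlt
        omega
      rw [← Subgroup.eq_of_le_of_card_ge inf_le_right this]
      exact inf_le_left
    exact eq_top_of_transitive N y0 hB hSN

end Cfsg.Agent.RuModel.Abs
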