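import Cfsg.Agent.RuModel.GrpFun

/-! Checks on the generators, words and trees (owner: helper52). -/

set_option autoImplicit false
set_option maxRecDepth 4000
set_option Elab.async false

open Cfsg.Agent.CosetCert

namespace Cfsg.Agent.RuModel

theorem fixBase1_ok : Nat.beq (imP 7 Dat.base1) Dat.base1 && Nat.beq (imP 8 Dat.base1) Dat.base1 = true := by
  decide +kernel

theorem stepT_ok : allB (fun m ↦ Nat.ble 2304 m || (Nat.beq (imP 7 (l2 m)) (l2 (stepT 0 m)) &&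
    (Nat.beq (imP 8 (l2 m)) (l2 (stepT 1 m)) && (Nat.blt (stepT 0 m) 2304 && Nat.blt (stepT 1 m) 2304))))
    12 0 = true := by
  decide +kernel

theorem stepH1_ok : allB (fun m ↦ Nat.ble 2304 m ||
    Nat.beq (runW stepT Dat.h1W m) (stepH 0 m)) 12 0 = true := by
  decide +kernel

theorem stepH2_ok : allB (fun m ↦ Nat.ble 2304 m ||
    Nat.beq (runW stepT Dat.h2W m) (stepH 1 m)) 12 0 = true := by
  decide +kernel

theorem words_ok : Dat.h1W.all (fun g ↦ Nat.blt g 2) && (Dat.h2W.all (fun g ↦ Nat.blt g 2) &&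
    (Dat.kW.all (fun g ↦ Nat.blt g 2) && (Dat.genW1.all (fun g ↦ Nat.blt g 2) &&
      (Dat.genW2.all (fun g ↦ Nat.blt g 2) && Dat.rels.all (fun w ↦ w.all fun g ↦ Nat.blt g 2))))) = true := by
  decide +kernel

theorem rels_ok : ∀ r : Fin 6, ∀ i : Fin 4,
    Nat.beq (runW stepT (Dat.rels.getD r.val []) ([Dat.pb2, Dat.pb3, Dat.pb4, Dat.pb5].getD i.val 0))
      ([Dat.pb2, Dat.pb3, Dat.pb4, Dat.pb5].getD i.val 0) = true := by
  decide +kernel

theorem rels_shape : Dat.rels.getD 0 [] = [0, 0] ∧ Dat.rels.getD 1 [] = [1, 1, 1] ∧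
    Dat.rels.getD 2 [] = (List.replicate 13 [0, 1]).flatten := by
  decide +kernel

theorem hBase_ok : ∀ i : Fin 4, let m := [Dat.pb2, Dat.pb3, Dat.pb4, Dat.pb5].getD i.val 0
    Nat.beq (runW stepH (List.replicate 13 0) m) m = true ∧
    Nat.beq (runW stepH [1, 1, 1] m) m = true ∧
    Nat.beq (runW stepH (Dat.genW1.flatMap fun g ↦ [[0], [1, 1, 0, 1]].getD g []) m) (stepH 1 m) = true ∧
    Nat.beq (runW stepH (Dat.genW2.flatMap fun g ↦ [[1], List.replicate 12 0 ++ [1, 0]].getD g []) m)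
      (stepH 0 m) = true := by
  decide +kernel

theorem hMoves_ok : stepH 0 Dat.pb2 = Dat.pb2 ∧ stepH 1 Dat.pb2 = Dat.pb2 ∧ stepH 0 Dat.pb3 = Dat.pb3 ∧
    stepH 0 Dat.pb4 ≠ Dat.pb4 ∧ stepH 1 Dat.pb3 ≠ Dat.pb3 ∧ runW stepH Dat.kW Dat.pb3 = Dat.pb3 ∧
    runW stepH Dat.kW Dat.pb4 = Dat.pb4 ∧ runW stepH Dat.kW Dat.pb5 ≠ Dat.pb5 ∧ stepT 1 Dat.bFix = Dat.bFix ∧
    Dat.bFix < 2304 := by
  decide +kernel

theorem h1orbit_ok : ∀ i j : Fin 13,
    Nat.beq (runW stepH (List.replicate i.val 0) Dat.pb4) (runW stepH (List.replicate j.val 0) Dat.pb4) = true →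
      i = j := by
  decide +kernel

theorem h1fix_ok : allB (fun m ↦ Nat.ble 2304 m || (!Nat.beq (stepH 0 m) m ||
    Dat.h1fix.any (fun y ↦ Nat.beq y m))) 12 0 && Nat.beq Dat.h1fix.length 3 = true := by
  decide +kernel

theorem h1fix3_ok : allB (fun j ↦ Nat.ble 300 j || (!Nat.beq (stepH 0 (Dat.l3T.get 16 j)) (Dat.l3T.get 16 j) ||
    Nat.beq (Dat.l3T.get 16 j) Dat.pb3)) 9 0 = true := by
  decide +kernel

theorem treeTwo_ok : allB (fun m ↦ Nat.ble 2304 m ||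
    nodeOK Dat.treeTwo [Dat.pb2] stepT 2304 m) 12 0 = true := by
  decide +kernel

theorem treeH_ok : allB (fun m ↦ Nat.ble 2304 m ||
    nodeOK Dat.treeH Dat.rootsH stepH 2304 m) 12 0 = true := by
  decide +kernel

theorem rootsH_ok : Dat.rootsH.length = 7 ∧ Dat.rootsH.getD 0 0 = Dat.pb2 ∧ Dat.rootsH.getD 1 0 = Dat.pb3 ∧
    allB (fun j ↦ Nat.ble 300 j || Nat.beq (tCls Dat.treeH (Dat.l3T.get 16 j)) 1) 9 0 = true := by
  decide +kernel

theorem sizesH_ok : ∀ s : Fin 128,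
    let t := ((List.range 7).map fun c ↦ bif Nat.testBit s.val c then clsSize Dat.treeH 2304 c else 0).sum
    s.val.testBit 0 = true → t ∣ 2304 → s.val = 1 ∨ s.val = 127 := by
  decide +kernel

theorem treeLine_ok : allB (fun i ↦ Nat.ble 4060 i ||
    nodeOK Dat.treeLine Dat.rootsLine stepLine 4060 i) 12 0 = true := by
  decide +kernel

theorem rootsLine_ok : Dat.rootsLine.length = 3 ∧ Dat.rootsLine.getD 0 0 = Dat.base1 / 4 ∧
    clsSize Dat.treeLine 4060 0 = 1 ∧ clsSize Dat.treeLine 4060 1 = 2304 ∧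
    clsSize Dat.treeLine 4060 2 = 1755 := by
  decide +kernel

end Cfsg.Agent.RuModel
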