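import Cfsg.Agent.RuModel.GrpFun

/-! Checks on the propagation and on the few elements given by pairs (owner: helper52). -/

set_option autoImplicit false
set_option maxRecDepth 4000
set_option Elab.async false

open Cfsg.Agent.CosetCert

namespace Cfsg.Agent.RuModel

theorem pairs_ok : Dat.pairsG.all pairOK = true := by decide +kernel

theorem learnt_ok : Nat.beq (learntUpTo Dat.certN) (Nat.sub (Nat.shiftLeft 1 4608) 1) = true := by
  decide +kernel

theorem pq_ok : stepP 10 (stepP 9 Dat.base1) = Dat.base1 ∧ stepP 10 (stepP 9 Dat.base2) = Dat.base2 ∧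
    ∀ i : Fin 5, let k := [Dat.base1, Dat.base2, Dat.base3, Dat.base4, Dat.base5].getD i.val 0
      stepP 9 (stepP 9 (stepP 9 k)) = rotN k Dat.scalP ∧
      runW stepP (List.replicate 15 10) k = rotN k Dat.scalQ ∧
      stepP 12 (stepP 11 k) = rotN (stepP 11 (stepP 12 k)) 2 := by
  decide +kernel

theorem e78_ok : ∀ j : Fin 78, stepP 10 (stepP 9 (l2 (Dat.o78T.get 16 j.val))) =
      l2 (Dat.o78T.get 16 (Dat.e78T.get 16 j.val)) ∧
    swapsAt Dat.swaps j.val = Dat.e78T.get 16 j.val ∧ Dat.e78T.get 16 j.val < 78 := by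
  decide +kernel

theorem swaps_ok : Dat.swaps.length % 2 = 1 ∧
    Dat.swaps.all (fun s ↦ Nat.blt s.1 78 && (Nat.blt s.2 78 && !Nat.beq s.1 s.2)) = true := by
  decide +kernel

end Cfsg.Agent.RuModel
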