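import Cfsg.Agent.RuModel.TitsSimple
import Cfsg.Prelude.Def_Exceptional

/-!
# The group on the 4060 lines is simple (owner: helper52)
-/

set_option autoImplicit false
set_option maxRecDepth 4000
set_option maxHeartbeats 1000000

open Cfsg.Spor Cfsg.Agent.CosetCert MulAction
open scoped BigOperators

namespace Cfsg.Agent.RuModel

/-- The line of the first base point. -/
def Y0 : Fin 4060 := lineOf B1

theorem Y0_eq : Y0 = 0 := Fin.ext (show Dat.base1 / 4 = 0 by decide +kernel)

theorem range_smul (f : piHom.range) (y : Fin 4060) : f • y = (f : Equiv.Perm (Fin 4060)) y := rfl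

theorem exists_to_line : ∀ d i, (hi : i < 4060) → Dat.treeT.get 32 i / 8 / 4096 = d →
    ∃ f : fourRu, f • (0 : Fin 4060) = ⟨i, hi⟩ := by
  intro d
  induction d using Nat.strong_induction_on with
  | _ d ih =>
    intro i hi hd
    have := allB_spec_zero tree_ok (by norm_num : 4060 ≤ 2 ^ 12) hi
    simp only [Bool.or_eq_true, treeB, Bool.and_eq_true] at this
    rcases this with h | h | ⟨hg', hj, hlt, he⟩
    · exact absurd (Nat.le_of_ble_eq_true h) (by omega)
    · obtain rfl := Nat.eq_of_beq_eq_true h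
      exact ⟨1, one_smul _ _⟩
    have hg7 : Dat.treeT.get 32 i % 8 < 7 := Nat.le_of_ble_eq_true hg'
    have hj' : Dat.treeT.get 32 i / 8 % 4096 < 4060 := Nat.le_of_ble_eq_true hj
    have hlt' : Dat.treeT.get 32 (Dat.treeT.get 32 i / 8 % 4096) / 8 / 4096 < d :=
      hd ▸ Nat.le_of_ble_eq_true hlt
    obtain ⟨f, hf⟩ := ih _ hlt' _ hj' rfl
    refine ⟨gen ⟨Dat.treeT.get 32 i % 8, by omega⟩ * f, ?_⟩
    rw [mul_smul, hf]
    show lineOf ((gen ⟨(⟨Dat.treeT.get 32 i % 8, by omega⟩ : Fin 9).val, by omega⟩ : fourRu) • repOf _) = _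
    rw [gen_smul]
    refine Fin.ext ?_
    have he' : imK (Dat.treeT.get 32 i % 8) (Dat.treeT.get 32 i / 8 % 4096) / 4 = i :=
      Nat.eq_of_beq_eq_true he
    show imP (Dat.treeT.get 32 i % 8) (4 * (Dat.treeT.get 32 i / 8 % 4096)) / 4 = i
    rw [imP_eq, show 4 * (Dat.treeT.get 32 i / 8 % 4096) / 4 = Dat.treeT.get 32 i / 8 % 4096 by omega]
    unfold rot
    omega

instance range_transitive : IsPretransitive piHom.range (Fin 4060) := by
  refine ⟨fun a b ↦ ?_⟩
  obtain ⟨f, hf⟩ := exists_to_line _ a.val a.isLt rfl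
  obtain ⟨g, hg'⟩ := exists_to_line _ b.val b.isLt rfl
  refine ⟨⟨piHom (g * f⁻¹), g * f⁻¹, rfl⟩, ?_⟩
  rw [range_smul, piHom_apply, mul_smul, inv_smul_eq_iff.2 hf.symm, hg']

/-- The stabiliser of the first point maps into the group on the lines. -/
noncomputable def psi : S1 →* piHom.range := piHom.rangeRestrict.comp S1.subtype

theorem psi_inj : Function.Injective psi := by
  refine (injective_iff_map_eq_one psi).2 fun f hf ↦ ?_
  obtain ⟨v, hv, e⟩ := ker_eq_scalars (f := (f : fourRu))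
    (MonoidHom.mem_ker.2 (congrArg Subtype.val hf))
  refine Subtype.ext ?_
  rw [e]
  have h : (iS ^ v) • B1 = B1 := e ▸ f.2
  rw [iS_pow_smul] at h
  have h' := congrArg Fin.val h
  simp only [rot] at h'
  have : v = 0 := by omega
  rw [this, pow_zero]
  rfl

theorem psi_fix (f : S1) : psi f • Y0 = Y0 := by
  show (f : fourRu) • lineOf B1 = lineOf B1
  rw [smul_line, show (f : fourRu) • B1 = B1 from f.2]

/-- The Tits subgroup on the lines. -/
noncomputable def TL : Subgroup piHom.range := T.map psi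

theorem TL_facts : TL ≤ stabilizer piHom.range Y0 ∧ Nat.card TL = 17971200 ∧ IsSimpleGroup TL := by
  refine ⟨?_, (Subgroup.card_map_of_injective psi_inj).trans card_T.1, ?_⟩
  · rintro _ ⟨t, _, rfl⟩
    exact psi_fix t
  · haveI := T_simple
    exact (Subgroup.equivMapOfInjective T psi psi_inj).symm.isSimpleGroup

theorem psi_tg_smul {g : ℕ} (hg' : g < 2) {i : ℕ} (hi : i < 4060) (hs : stepLine g i < 4060) :
    psi (tg g) • (⟨i, hi⟩ : Fin 4060) = ⟨stepLine g i, hs⟩ := by
  show lineOf ((gen ⟨(⟨7 + g % 2, by omega⟩ : Fin 9).val, by omega⟩ : fourRu) • repOf ⟨i, hi⟩) = _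
  rw [gen_smul]
  refine Fin.ext ?_
  show imP (7 + g % 2) (4 * i) / 4 = imK (7 + g) i / 4
  rw [Nat.mod_eq_of_lt hg', imP_eq, show 4 * i / 4 = i by omega]
  unfold rot
  omega

theorem treeLine_class (m : Fin 4060) : ∃ t ∈ TL, ∃ hr : Dat.rootsLine.getD (tCls Dat.treeLine m.val) 4060 < 4060,
    t • (⟨_, hr⟩ : Fin 4060) = m := by
  generalize hd : tDep Dat.treeLine m.val = d
  induction d using Nat.strong_induction_on generalizing m with
  | _ d ih =>
    have := allB_spec_zero treeLine_ok (show 4060 ≤ 2 ^ 12 by norm_num) m.isLt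
    rw [Bool.or_eq_true] at this
    rcases this with h | h
    · exact absurd (Nat.le_of_ble_eq_true h) (by omega)
    rcases nodeOK_spec h with ⟨-, -, c⟩ | ⟨hp, hg', hlt, hc, he⟩
    · exact ⟨1, one_mem _, lt_of_eq_of_lt c m.isLt, by rw [one_smul]; exact Fin.ext c⟩
    · obtain ⟨t, ht, hr, e⟩ := ih _ (hd ▸ hlt) ⟨_, hp⟩ rfl
      refine ⟨psi (tg (tGen Dat.treeLine m.val)) * t, mul_mem (Subgroup.mem_map_of_mem psi (tg_mem _)) ht,
        hc ▸ hr, ?_⟩
      rw [mul_smul, show (⟨Dat.rootsLine.getD (tCls Dat.treeLine m.val) 4060, hc ▸ hr⟩ : Fin 4060) = ⟨_, hr⟩ from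
        Fin.ext (congrArg (fun c ↦ Dat.rootsLine.getD c 4060) hc.symm), e, psi_tg_smul hg' hp (lt_of_eq_of_lt he m.isLt)]
      exact Fin.ext he

theorem treeLine_lt {i : ℕ} (hi : i < 4060) : tCls Dat.treeLine i < 3 := by
  obtain ⟨_, _, hr, _⟩ := treeLine_class ⟨i, hi⟩
  by_contra hcon
  rw [List.getD_eq_default _ _ (rootsLine_ok.1 ▸ not_lt.1 hcon)] at hr
  omega

theorem line_blocks (B : Set (Fin 4060)) (hB : Y0 ∈ B) (hinv : ∀ g ∈ TL, ∀ y ∈ B, g • y ∈ B)
    (hdvd : B.ncard ∣ 4060) : B = {Y0} ∨ B = Set.univ := by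
  classical
  set P : ℕ → Bool := fun c ↦ decide (∃ hr : Dat.rootsLine.getD c 4060 < 4060, (⟨_, hr⟩ : Fin 4060) ∈ B)
    with hP
  have hiff : ∀ m : Fin 4060, m ∈ B ↔ P (tCls Dat.treeLine m.val) = true := by
    intro m
    obtain ⟨t, ht, hr, et⟩ := treeLine_class m
    rw [hP, decide_eq_true_iff]
    constructor
    · intro hm
      refine ⟨hr, ?_⟩
      have := hinv _ (inv_mem ht) m hm
      rwa [inv_smul_eq_iff.2 et.symm] at this
    · rintro ⟨_, hm⟩
      have := hinv _ ht _ hm
      rwa [et] at this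
  obtain ⟨hlen, hr0, s0, s1, s2⟩ := rootsLine_ok
  have hr0' : Dat.rootsLine.getD 0 4060 = Dat.base1 / 4 := by
    rw [List.getD_eq_getElem _ _ (by rw [hlen]; norm_num),
      ← List.getD_eq_getElem _ 0 (by rw [hlen]; norm_num)]
    exact hr0
  have hP0 : P 0 = true := by
    rw [hP, decide_eq_true_iff]
    refine ⟨lt_of_eq_of_lt hr0' Y0.isLt, ?_⟩
    rw [show (⟨Dat.rootsLine.getD 0 4060, lt_of_eq_of_lt hr0' Y0.isLt⟩ : Fin 4060) = Y0 from Fin.ext hr0']
    exact hB
  have hcard := card_union Dat.treeLine P B (fun i hi ↦ treeLine_lt hi) hiff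
  rw [Finset.sum_range_succ, Finset.sum_range_succ, Finset.sum_range_one, hP0, s0, s1, s2, cond_true] at hcard
  cases h1 : P 1 <;> cases h2 : P 2 <;> simp only [h1, h2, cond_true, cond_false] at hcard
  · refine Or.inl (Set.eq_singleton_iff_unique_mem.2 ⟨hB, fun m hm ↦ ?_⟩)
    have hle : B.ncard ≤ 1 := by omega
    exact (Set.ncard_le_one_iff (Set.toFinite B)).1 hle hm hB
  · exact absurd (hcard ▸ hdvd) (by norm_num)
  · exact absurd (hcard ▸ hdvd) (by norm_num)
  · refine Or.inr (Set.eq_of_subset_of_ncard_le (Set.subset_univ B) ?_ (Set.toFinite _))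
    rw [Set.ncard_univ, Nat.card_fin]
    omega

theorem gen_odd_order (g : Fin 13) (n u : ℕ) (hn : Odd n)
    (h : ∀ b ∈ [B1, B2, B3, B4, B5], (gen g ^ n : fourRu) • b = (iS ^ u) • b) :
    Odd (orderOf (piHom.rangeRestrict (gen g))) := by
  have e : gen g ^ n = iS ^ u := by
    have hh : ∀ b ∈ [B1, B2, B3, B4, B5], ((iS ^ u)⁻¹ * gen g ^ n : fourRu) • b = b := fun b hb ↦ by
      rw [mul_smul, h b hb, inv_smul_smul]
    exact (inv_mul_eq_one.1 (eq_one_of_fix (hh B1 (by simp)) (hh B2 (by simp)) (hh B3 (by simp))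
      (hh B4 (by simp)) (hh B5 (by simp)))).symm
  refine hn.of_dvd_nat (orderOf_dvd_of_pow_eq_one ?_)
  rw [← map_pow, e]
  exact Subtype.ext (piHom_iS u)

theorem stepP_pow (g : Fin 13) : ∀ (n : ℕ) (k : Fin 16240) (v : ℕ), runW stepP (List.replicate n g.val) k.val = v →
    v < 16240 → ((gen g ^ n : fourRu) • k).val = v
  | 0, k, v, h, _ => by rw [pow_zero, one_smul]; exact h
  | n + 1, k, v, h, hv => by
    change runW stepP (List.replicate n g.val) (stepP g.val k.val) = v at h
    have hlt : stepP g.val k.val < 16240 := by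
      by_contra hcon
      have out : ∀ (m x : ℕ), ¬x < 16240 → ¬runW stepP (List.replicate m g.val) x < 16240 := by
        intro m
        induction m with
        | zero => exact fun x hx ↦ hx
        | succ m ih =>
          intro x hx
          refine ih _ ?_
          have key : ∀ l : List (ℕ × ℕ × ℕ), l.all pairOK = true →
              ¬ (List.rec (motive := fun _ => ℕ) 16240
                (fun e _ ih ↦ cond (Nat.beq e.1 g.val && Nat.beq e.2.1 x) e.2.2 ih) l) < 16240 := by
            intro l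
            induction l with
            | nil => intro _; exact lt_irrefl _
            | cons e l ihl =>
              intro hl
              simp only [List.all_cons, Bool.and_eq_true] at hl
              show ¬ cond (Nat.beq e.1 g.val && Nat.beq e.2.1 x) e.2.2 _ < 16240
              cases hc : (Nat.beq e.1 g.val && Nat.beq e.2.1 x) with
              | false => exact ihl hl.2
              | true =>
                simp only [Bool.and_eq_true] at hc
                have hp := hl.1
                simp only [pairOK, Bool.and_eq_true] at hp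
                rw [Nat.eq_of_beq_eq_true hc.2] at hp
                exact absurd (Nat.le_of_ble_eq_true hp.2.1) hx
          exact key _ pairs_ok
      exact out n _ hcon (h ▸ hv)
    rw [pow_succ, mul_smul, pair_smul (g := g) (v := stepP g.val k.val) rfl hlt]
    exact stepP_pow g n ⟨_, hlt⟩ v h hv

theorem base_list : ∀ b ∈ [B1, B2, B3, B4, B5], ∃ i : Fin 5,
    b.val = [Dat.base1, Dat.base2, Dat.base3, Dat.base4, Dat.base5].getD i.val 0 := by
  intro b hb
  simp only [List.mem_cons, List.not_mem_nil, or_false] at hb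
  rcases hb with rfl | rfl | rfl | rfl | rfl
  exacts [⟨0, rfl⟩, ⟨1, rfl⟩, ⟨2, rfl⟩, ⟨3, rfl⟩, ⟨4, rfl⟩]

theorem p_odd : Odd (orderOf (piHom.rangeRestrict (gen 9))) := by
  refine gen_odd_order 9 3 Dat.scalP (by decide) fun b hb ↦ ?_
  obtain ⟨i, hi⟩ := base_list b hb
  refine Fin.ext ?_
  rw [iS_pow_smul]
  refine stepP_pow 9 3 b _ ?_ (rot_lt b.isLt _)
  have h := (pq_ok.2.2 i).1
  rw [← hi] at h
  exact h

theorem q_odd : Odd (orderOf (piHom.rangeRestrict (gen 10))) := by
  refine gen_odd_order 10 15 Dat.scalQ (by decide) fun b hb ↦ ?_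
  obtain ⟨i, hi⟩ := base_list b hb
  refine Fin.ext ?_
  rw [iS_pow_smul]
  refine stepP_pow 10 15 b _ ?_ (rot_lt b.isLt _)
  have h := (pq_ok.2.2 i).2.1
  rw [← hi] at h
  exact h

theorem pq_stab : piHom.rangeRestrict (gen 10) * piHom.rangeRestrict (gen 9) ∈ stabilizer piHom.range Y0 ∧
    piHom.rangeRestrict (gen 10) * piHom.rangeRestrict (gen 9) ∉ TL := by
  have e : piHom.rangeRestrict (gen 10) * piHom.rangeRestrict (gen 9) = psi (eSt : S1) :=
    (map_mul piHom.rangeRestrict (gen 10) (gen 9)).symm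
  refine ⟨e ▸ mem_stabilizer_iff.2 (psi_fix _), fun h ↦ ?_⟩
  rw [e] at h
  obtain ⟨t, ht, het⟩ := h
  have := psi_inj het
  have hE := eps_T (t := eSt) (this ▸ ht)
  rw [eps_eSt] at hE
  exact absurd hE (by decide)

/-- **The group on the lines is simple.** -/
theorem range_simple : IsSimpleGroup piHom.range :=
  Abs.K_simple (Y := Fin 4060) (Nat.card_fin _) card_fourRu.2.2.1 Y0 TL TL_facts.1 TL_facts.2.1 TL_facts.2.2
    line_blocks (piHom.rangeRestrict (gen 10)) (piHom.rangeRestrict (gen 9)) q_odd p_odd pq_stab.1 pq_stab.2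

theorem stab_card : Nat.card (stabilizer piHom.range (0 : Fin 4060)) = 35942400 := by
  have h := (stabilizer piHom.range (0 : Fin 4060)).card_mul_index
  rw [index_stabilizer_of_transitive, Nat.card_fin, card_fourRu.2.2.1] at h
  exact Nat.eq_of_mul_eq_mul_right (show 0 < 4060 from Nat.succ_pos _) (h.trans (Eq.refl (35942400 * 4060)))

theorem exists_tits : ∃ U : Subgroup (stabilizer piHom.range (0 : Fin 4060)), Cfsg.IsTits U := by
  have hle : TL ≤ stabilizer piHom.range (0 : Fin 4060) := Y0_eq ▸ TL_facts.1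
  refine ⟨TL.subgroupOf _, ?_, ?_⟩
  · haveI := TL_facts.2.2
    exact (Subgroup.subgroupOfEquivOfLe hle).isSimpleGroup
  · exact (Nat.card_congr (Subgroup.subgroupOfEquivOfLe hle).toEquiv).trans TL_facts.2.1

end Cfsg.Agent.RuModel
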