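import Cfsg.Agent.RuModel.TitsOrder

/-!
# The index two subgroup has order 17971200 (owner: helper52)
-/

set_option autoImplicit false
set_option maxRecDepth 4000

open Cfsg.Spor Cfsg.Agent.CosetCert MulAction
open scoped BigOperators

namespace Cfsg.Agent.RuModel

/-- The stabiliser of two points inside the first stabiliser. -/
noncomputable def St : Subgroup S1 := stabilizer S1 M2

theorem o78_spec (j : Fin 78) : Dat.o78T.get 16 j.val < 2304 ∧
    Dat.o78P.get 16 (Dat.o78T.get 16 j.val) = j.val ∧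
    sigc Dat.base2 (l2 (Dat.o78T.get 16 j.val)) = 4092 * 8192 + 4096 := by
  have := allB_spec_zero o78_ok (show 78 ≤ 2 ^ 7 by norm_num) j.isLt
  simp only [Bool.or_eq_true, Bool.and_eq_true] at this
  rcases this with h | ⟨h1, h2, h3⟩
  · exact absurd (Nat.le_of_ble_eq_true h) (by omega)
  · exact ⟨Nat.le_of_ble_eq_true h1, Nat.eq_of_beq_eq_true h2, Nat.eq_of_beq_eq_true h3⟩

/-- The suborbit of length 78. -/
noncomputable def O78 (j : Fin 78) : Fin 2304 := ⟨Dat.o78T.get 16 j.val, (o78_spec j).1⟩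

theorem O78_inj : Function.Injective O78 := fun a b h ↦ Fin.ext (by
  rw [← (o78_spec a).2.1, ← (o78_spec b).2.1,
    show Dat.o78T.get 16 a.val = Dat.o78T.get 16 b.val from congrArg Fin.val h])

theorem exists_O78 (f : St) (j : Fin 78) : ∃ i, O78 i = (f : S1) • O78 j := by
  have h := fix_sigc (fix_base_pos (f := (f : S1)) pb_L2.1 f.2) (L2 (O78 j))
  rw [← L2_smul] at h
  have hs : sigc Dat.base2 (l2 ((f : S1) • O78 j).val) = 4092 * 8192 + 4096 := h.trans (o78_spec j).2.2
  have := allB_spec_zero o78P_ok (show 2304 ≤ 2 ^ 12 by norm_num) ((f : S1) • O78 j).isLt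
  simp only [Bool.or_eq_true, Bool.and_eq_true, Bool.not_eq_true'] at this
  rcases this with h' | h' | ⟨h1, h2⟩
  · exact absurd (Nat.le_of_ble_eq_true h') (by omega)
  · rw [hs, show Nat.beq _ _ = true from Nat.beq_refl _] at h'; exact Bool.noConfusion h'
  · exact ⟨⟨_, Nat.le_of_ble_eq_true h1⟩, Fin.ext (Nat.eq_of_beq_eq_true h2)⟩

/-- The action on the suborbit of length 78. -/
noncomputable instance shortAction : MulAction St (Fin 78) where
  smul f j := (exists_O78 f j).choose
  one_smul j := O78_inj (by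
    show O78 (exists_O78 1 j).choose = O78 j
    rw [(exists_O78 1 j).choose_spec, Subgroup.coe_one, one_smul])
  mul_smul f g j := O78_inj (by
    show O78 (exists_O78 (f * g) j).choose = O78 (exists_O78 f (exists_O78 g j).choose).choose
    rw [(exists_O78 (f * g) j).choose_spec, (exists_O78 f (exists_O78 g j).choose).choose_spec,
      (exists_O78 g j).choose_spec, Subgroup.coe_mul, mul_smul])

theorem O78_smul (f : St) (j : Fin 78) : O78 (f • j) = (f : S1) • O78 j := (exists_O78 f j).choose_spec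

/-- The sign on the suborbit. -/
noncomputable def eps : St →* ℤˣ := Equiv.Perm.sign.comp (MulAction.toPermHom St (Fin 78))

/-- The two-point element of a transversal step. -/
noncomputable def zT (t : S1) (m : Fin 2304) : St :=
  ⟨(wT (t • m))⁻¹ * t * wT m, by
    show ((wT (t • m))⁻¹ * t * wT m) • M2 = M2
    rw [mul_smul, mul_smul, wT_smul, inv_smul_eq_iff, wT_smul]⟩

/-- The cocycle. -/
noncomputable def cyc (t : S1) (m : Fin 2304) : ℤˣ := eps (zT t m)

theorem cyc_mul (t u : S1) (m : Fin 2304) : cyc (t * u) m = cyc t (u • m) * cyc u m := by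
  rw [cyc, cyc, cyc, ← map_mul]
  refine congrArg eps (Subtype.ext ?_)
  show (wT ((t * u) • m))⁻¹ * (t * u) * wT m =
    (wT (t • u • m))⁻¹ * t * wT (u • m) * ((wT (u • m))⁻¹ * u * wT m)
  rw [mul_smul]
  group

theorem cyc_one (m : Fin 2304) : cyc 1 m = 1 := by
  have h := cyc_mul 1 1 m
  rw [one_mul, one_smul] at h
  exact left_eq_mul.1 h

/-- The value of an edge. -/
noncomputable def edgeC (e : ℕ) : ℤˣ :=
  if h : e / 2 < 2304 then cyc (tg (e % 2)) ⟨e / 2, h⟩ else 1

/-- The product over a set of edges. -/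
noncomputable def maskVal (k : ℕ) : ℤˣ :=
  ∏ e ∈ Finset.range 4608, if k.testBit e then edgeC e else 1

theorem maskVal_xor (a b : ℕ) : maskVal (a ^^^ b) = maskVal a * maskVal b := by
  rw [maskVal, maskVal, maskVal, ← Finset.prod_mul_distrib]
  refine Finset.prod_congr rfl fun e _ ↦ ?_
  rw [Nat.testBit_xor]
  cases a.testBit e <;> cases b.testBit e <;> simp [Int.units_mul_self]

theorem maskVal_single {e : ℕ} (he : e < 4608) : maskVal (2 ^ e) = edgeC e := by
  rw [maskVal, Finset.prod_eq_single_of_mem e (Finset.mem_range.2 he)]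
  · simp
  · intro i _ hne
    simp [Nat.testBit_two_pow, Ne.symm hne]

theorem shiftLeft_one (e : ℕ) : Nat.shiftLeft 1 e = 2 ^ e := by
  show 1 <<< e = _
  rw [Nat.shiftLeft_eq, one_mul]

theorem edgeAcc_val : ∀ (w : List ℕ), w.all (fun g ↦ Nat.blt g 2) = true → ∀ (m : Fin 2304) (acc : ℕ),
    maskVal (edgeAcc w m.val acc) = maskVal acc * cyc (wv tg w) m
  | [], _, m, acc => by rw [wv, cyc_one, mul_one]; rfl
  | g :: w, hw, m, acc => by
    simp only [List.all_cons, Bool.and_eq_true] at hw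
    have hg : g < 2 := Nat.le_of_ble_eq_true hw.1
    show maskVal (edgeAcc w (stepT g m.val) (Nat.xor acc (Nat.shiftLeft 1 (2 * m.val + g)))) = _
    rw [shiftLeft_one, show stepT g m.val = (tg g • m : Fin 2304).val from (tg_val g hg m).symm,
      edgeAcc_val w hw.2, show Nat.xor acc (2 ^ (2 * m.val + g)) = acc ^^^ 2 ^ (2 * m.val + g) from rfl,
      maskVal_xor, maskVal_single (by omega), wv, cyc_mul, edgeC,
      dif_pos (show (2 * m.val + g) / 2 < 2304 by omega), show (2 * m.val + g) % 2 = g by omega,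
      show (⟨(2 * m.val + g) / 2, by omega⟩ : Fin 2304) = m from
        Fin.ext (show (2 * m.val + g) / 2 = m.val by omega)]
    rw [mul_assoc, mul_comm (cyc (tg g) m)]

/-- All known edges have value one. -/
def Known (k : ℕ) : Prop := ∀ e < 4608, k.testBit e = true → edgeC e = 1

theorem known_or {k e : ℕ} (hk : Known k) (he : e < 4608 → edgeC e = 1) : Known (k ||| 2 ^ e) := by
  intro i hi h
  rw [Nat.testBit_or, Nat.testBit_two_pow, Bool.or_eq_true, decide_eq_true_iff] at h
  rcases h with h | rfl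
  · exact hk i hi h
  · exact he hi

theorem known_tree : ∀ n, n ≤ 2304 → Known (treeKnown n)
  | 0, _ => fun e _ h ↦ by
    rw [show treeKnown 0 = 0 from rfl, Nat.zero_testBit] at h
    exact Bool.noConfusion h
  | n + 1, hn => by
    show Known (cond (Nat.beq (tDep Dat.treeTwo n) 0) (treeKnown n)
      (Nat.lor (treeKnown n) (Nat.shiftLeft 1 (2 * tPar Dat.treeTwo n + tGen Dat.treeTwo n))))
    cases h : Nat.beq (tDep Dat.treeTwo n) 0 with
    | true => exact known_tree n (by omega)
    | false =>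
      rw [cond_false, shiftLeft_one]
      refine known_or (known_tree n (by omega)) fun _ ↦ ?_
      obtain ⟨hp, hg, e, e'⟩ := wT_edge (m := ⟨n, by omega⟩) (fun h0 ↦ by
        simp only at h0
        rw [h0] at h; exact Bool.noConfusion h)
      simp only at hp hg e e'
      rw [edgeC, dif_pos (show (2 * tPar Dat.treeTwo n + tGen Dat.treeTwo n) / 2 < 2304 by omega),
        show (2 * tPar Dat.treeTwo n + tGen Dat.treeTwo n) % 2 = tGen Dat.treeTwo n by omega, cyc]
      refine (congrArg eps (Subtype.ext ?_)).trans (map_one eps)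
      show (wT _)⁻¹ * tg (tGen Dat.treeTwo n) * wT _ = 1
      rw [show (⟨(2 * tPar Dat.treeTwo n + tGen Dat.treeTwo n) / 2, by omega⟩ : Fin 2304) =
        ⟨tPar Dat.treeTwo n, hp⟩ from Fin.ext (show (2 * tPar Dat.treeTwo n + tGen Dat.treeTwo n) / 2 =
          tPar Dat.treeTwo n by omega), e', mul_assoc, ← e, inv_mul_cancel]

theorem known_learn {k : ℕ} (hk : Known k) (i : ℕ) : Known (learn k i) := by
  show Known (cond (Nat.blt (Dat.certT.get 32 i % 8) 6 && (Nat.blt (Dat.certT.get 32 i / 8 % 4096) 2304 &&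
      Nat.beq (Nat.xor (edgeAcc (Dat.rels.getD (Dat.certT.get 32 i % 8) []) (Dat.certT.get 32 i / 8 % 4096) 0)
        (Nat.land (edgeAcc (Dat.rels.getD (Dat.certT.get 32 i % 8) []) (Dat.certT.get 32 i / 8 % 4096) 0) k))
        (Nat.shiftLeft 1 (Dat.certT.get 32 i / 32768))))
    (Nat.lor k (Nat.shiftLeft 1 (Dat.certT.get 32 i / 32768))) k)
  set r := Dat.certT.get 32 i % 8
  set x := Dat.certT.get 32 i / 8 % 4096
  set e := Dat.certT.get 32 i / 32768
  cases h : (Nat.blt r 6 && (Nat.blt x 2304 && Nat.beq (Nat.xor (edgeAcc (Dat.rels.getD r []) x 0)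
      (Nat.land (edgeAcc (Dat.rels.getD r []) x 0) k)) (Nat.shiftLeft 1 e))) with
  | false => exact hk
  | true =>
    simp only [Bool.and_eq_true] at h
    obtain ⟨hr, hx, he⟩ := h
    rw [cond_true, shiftLeft_one]
    refine known_or hk fun he' ↦ ?_
    set acc := edgeAcc (Dat.rels.getD r []) x 0 with hacc
    have h0 : maskVal acc = 1 := by
      rw [hacc, show x = ((⟨x, Nat.le_of_ble_eq_true hx⟩ : Fin 2304) : ℕ) from rfl,
        edgeAcc_val _ (rel_word r), rel_eq_one (Nat.le_of_ble_eq_true hr), cyc_one, mul_one]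
      simp [maskVal]
    have h1 : maskVal (Nat.land acc k) = 1 := by
      refine Finset.prod_eq_one fun j hj ↦ ?_
      show (if (acc &&& k).testBit j then edgeC j else 1) = 1
      split
      · rename_i hb
        rw [Nat.testBit_and, Bool.and_eq_true] at hb
        exact hk j (Finset.mem_range.1 hj) hb.2
      · rfl
    have := congrArg maskVal (Nat.eq_of_beq_eq_true he)
    rw [show Nat.xor acc (Nat.land acc k) = acc ^^^ Nat.land acc k from rfl, maskVal_xor, h0, h1, one_mul,
      shiftLeft_one, maskVal_single he'] at this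
    exact this.symm

theorem known_all : ∀ n, Known (learntUpTo n)
  | 0 => known_tree 2304 le_rfl
  | n + 1 => known_learn (known_all n) n

theorem edge_one {e : ℕ} (he : e < 4608) : edgeC e = 1 := by
  refine known_all Dat.certN e he ?_
  have h2 : ∀ n, e < n → (Nat.sub (Nat.shiftLeft 1 n) 1).testBit e = true := fun n hn ↦ by
    rw [shiftLeft_one]
    show (2 ^ n - 1).testBit e = true
    rw [Nat.testBit_two_pow_sub_one]
    exact decide_eq_true hn
  rw [Nat.eq_of_beq_eq_true learnt_ok]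
  exact h2 4608 he

theorem cyc_tg (g : ℕ) (m : Fin 2304) : cyc (tg g) m = 1 := by
  have h := edge_one (e := 2 * m.val + g % 2) (by omega)
  rw [edgeC, dif_pos (show (2 * m.val + g % 2) / 2 < 2304 by omega)] at h
  rw [show (2 * m.val + g % 2) % 2 = g % 2 by omega,
    show (⟨(2 * m.val + g % 2) / 2, by omega⟩ : Fin 2304) = m from
      Fin.ext (show (2 * m.val + g % 2) / 2 = m.val by omega),
    show tg (g % 2) = tg g from Subtype.ext (congrArg gen (Fin.ext (show 7 + g % 2 % 2 = 7 + g % 2 by omega)))] at h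
  exact h

theorem cyc_T {t : S1} (ht : t ∈ T) : ∀ m, cyc t m = 1 := by
  induction ht using Subgroup.closure_induction with
  | mem x hx =>
    rcases hx with rfl | rfl
    · exact cyc_tg 0
    · exact cyc_tg 1
  | one => exact cyc_one
  | mul x y _ _ hx hy => intro m; rw [cyc_mul, hx, hy, one_mul]
  | inv x _ hx =>
    intro m
    have := cyc_mul x x⁻¹ m
    rwa [mul_inv_cancel, cyc_one, hx, one_mul, eq_comm] at this

theorem eps_T {t : St} (ht : (t : S1) ∈ T) : eps t = 1 := by
  have := cyc_T ht M2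
  rw [cyc] at this
  rwa [show zT (t : S1) M2 = t from Subtype.ext (by
    show (wT ((t : S1) • M2))⁻¹ * (t : S1) * wT M2 = t
    rw [show (t : S1) • M2 = M2 from t.2, wT_root, inv_one, one_mul, mul_one])] at this

theorem pair_smul {g : Fin 13} {k : Fin 16240} {v : ℕ} (h : stepP g.val k.val = v) (hv : v < 16240) :
    (gen g : fourRu) • k = ⟨v, hv⟩ := by
  have key : ∀ l : List (ℕ × ℕ × ℕ), l.all pairOK = true →
      List.rec (motive := fun _ => ℕ) 16240
        (fun e _ ih ↦ cond (Nat.beq e.1 g.val && Nat.beq e.2.1 k.val) e.2.2 ih) l = v →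
      (gen g : fourRu) • k = ⟨v, hv⟩ := by
    intro l
    induction l with
    | nil => intro _ he; simp at he; omega
    | cons e l ih =>
      intro hl he
      simp only [List.all_cons, Bool.and_eq_true] at hl
      change cond (Nat.beq e.1 g.val && Nat.beq e.2.1 k.val) e.2.2 _ = v at he
      cases hc : (Nat.beq e.1 g.val && Nat.beq e.2.1 k.val) with
      | false => rw [hc] at he; exact ih hl.2 he
      | true =>
        rw [hc, cond_true] at he
        simp only [Bool.and_eq_true] at hc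
        obtain ⟨h1, h2⟩ := hc
        have hp := hl.1
        simp only [pairOK, Bool.and_eq_true] at hp
        obtain ⟨-, -, -, hchk⟩ := hp
        rw [Nat.eq_of_beq_eq_true h1, Nat.eq_of_beq_eq_true h2, he] at hchk
        exact smul_eq _ (Subtype.ext (mapG_eq g
          (chkIm_sound (tabs_ok g) tabId_ok (codeK_good k.isLt) (codeK_good hv) hchk)))
  exact key _ pairs_ok h

/-- The odd element. -/
noncomputable def eOdd : fourRu := gen 10 * gen 9

theorem eOdd_smul {k : Fin 16240} {v : ℕ} (h : stepP 10 (stepP 9 k.val) = v) (hv : v < 16240) :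
    eOdd • k = ⟨v, hv⟩ := by
  have h9 : stepP 9 k.val < 16240 := by
    by_contra hcon
    have key : ∀ l : List (ℕ × ℕ × ℕ), l.all pairOK = true → ∀ g k', ¬ k' < 16240 →
        List.rec (motive := fun _ => ℕ) 16240
          (fun e _ ih ↦ cond (Nat.beq e.1 g && Nat.beq e.2.1 k') e.2.2 ih) l = 16240 := by
      intro l
      induction l with
      | nil => intro _ _ _ _; rfl
      | cons e l ih =>
        intro hl g k' hk'
        simp only [List.all_cons, Bool.and_eq_true] at hl
        show cond (Nat.beq e.1 g && Nat.beq e.2.1 k') e.2.2 _ = _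
        cases hc : (Nat.beq e.1 g && Nat.beq e.2.1 k') with
        | false => exact ih hl.2 g k' hk'
        | true =>
          simp only [Bool.and_eq_true] at hc
          have hp := hl.1
          simp only [pairOK, Bool.and_eq_true] at hp
          rw [Nat.eq_of_beq_eq_true hc.2] at hp
          exact absurd (Nat.le_of_ble_eq_true hp.2.1) hk'
    have h' : stepP 10 (stepP 9 k.val) = 16240 := key _ pairs_ok 10 _ hcon
    omega
  rw [eOdd, mul_smul, pair_smul (g := 9) (v := stepP 9 k.val) rfl h9]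
  exact pair_smul h hv

theorem eOdd_fix : eOdd • B1 = B1 ∧ eOdd • B2 = B2 :=
  ⟨eOdd_smul (k := B1) (v := Dat.base1) pq_ok.1 base_lt.1, eOdd_smul (k := B2) (v := Dat.base2) pq_ok.2.1 base_lt.2.1⟩

/-- The odd element of the two point stabiliser. -/
noncomputable def eSt : St :=
  ⟨⟨eOdd, eOdd_fix.1⟩, smul_pos (by rw [show L2 M2 = B2 from pb_L2.1]; exact eOdd_fix.2)⟩

/-- A swap by numbers. -/
def swapF (s : ℕ × ℕ) : Equiv.Perm (Fin 78) :=
  Equiv.swap ⟨s.1 % 78, Nat.mod_lt _ (by norm_num)⟩ ⟨s.2 % 78, Nat.mod_lt _ (by norm_num)⟩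

theorem swaps_prod : ∀ l : List (ℕ × ℕ),
    l.all (fun s ↦ Nat.blt s.1 78 && (Nat.blt s.2 78 && !Nat.beq s.1 s.2)) = true →
    (∀ j : Fin 78, ((l.map swapF).prod j).val = swapsAt l j.val) ∧ (∀ p ∈ l.map swapF, p.IsSwap)
  | [], _ => ⟨fun j ↦ rfl, by simp⟩
  | s :: l, h => by
    simp only [List.all_cons, Bool.and_eq_true, Bool.not_eq_true'] at h
    obtain ⟨ih1, ih2⟩ := swaps_prod l h.2
    have ha : s.1 < 78 := Nat.le_of_ble_eq_true h.1.1
    have hb : s.2 < 78 := Nat.le_of_ble_eq_true h.1.2.1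
    have hab : s.1 ≠ s.2 := fun e ↦ by
      have h' := h.1.2.2
      rw [e, show Nat.beq s.2 s.2 = true from Nat.beq_refl _] at h'
      exact Bool.noConfusion h'
    refine ⟨fun j ↦ ?_, ?_⟩
    · rw [List.map_cons, List.prod_cons, Equiv.Perm.mul_apply]
      show (swapF s _).val = cond (Nat.beq (swapsAt l j.val) s.1) s.2
        (cond (Nat.beq (swapsAt l j.val) s.2) s.1 (swapsAt l j.val))
      rw [← ih1 j, swapF, Equiv.swap_apply_def]
      generalize (List.map swapF l).prod j = q
      simp only [Fin.ext_iff, Nat.mod_eq_of_lt ha, Nat.mod_eq_of_lt hb]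
      by_cases h1 : q.val = s.1
      · rw [if_pos h1, h1, show Nat.beq s.1 s.1 = true from Nat.beq_refl _]
        rfl
      · rw [if_neg h1, show Nat.beq q.val s.1 = false from by
          rcases h' : Nat.beq q.val s.1
          · rfl
          · exact absurd (Nat.eq_of_beq_eq_true h') h1, cond_false]
        by_cases h2 : q.val = s.2
        · rw [if_pos h2, h2, show Nat.beq s.2 s.2 = true from Nat.beq_refl _]
          rfl
        · rw [if_neg h2, show Nat.beq q.val s.2 = false from by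
            rcases h' : Nat.beq q.val s.2
            · rfl
            · exact absurd (Nat.eq_of_beq_eq_true h') h2]
          rfl
    · intro p hp
      rw [List.map_cons, List.mem_cons] at hp
      rcases hp with rfl | hp
      · exact ⟨_, _, fun e ↦ hab (by
          have := congrArg Fin.val e
          simpa [Nat.mod_eq_of_lt ha, Nat.mod_eq_of_lt hb] using this), rfl⟩
      · exact ih2 p hp

theorem eps_eSt : eps eSt = -1 := by
  obtain ⟨h1, h2⟩ := swaps_prod Dat.swaps swaps_ok.2
  have e : MulAction.toPermHom St (Fin 78) eSt = (Dat.swaps.map swapF).prod := by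
    refine Equiv.ext fun j ↦ Fin.ext ?_
    rw [h1 j, (e78_ok j).2.1]
    show (eSt • j : Fin 78).val = _
    have hj := e78_ok j
    have hh : eSt • j = ⟨Dat.e78T.get 16 j.val, hj.2.2⟩ := O78_inj (by
      rw [O78_smul]
      refine smul_pos ?_
      show eOdd • _ = _
      exact eOdd_smul (k := L2 (O78 j)) (v := l2 (Dat.o78T.get 16 (Dat.e78T.get 16 j.val))) hj.1
        (L2 (O78 ⟨_, hj.2.2⟩)).isLt)
    rw [hh]
  show Equiv.Perm.sign (MulAction.toPermHom St (Fin 78) eSt) = -1
  rw [e, Equiv.Perm.sign_prod_list_swap h2, List.length_map, ← Nat.mod_add_div Dat.swaps.length 2,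
    swaps_ok.1, pow_add, pow_mul, Int.units_sq, one_pow, pow_one, mul_one]

theorem card_St : Nat.card St = 15600 := by
  rw [← card_fourRu.2.2.2.2.1]
  exact Nat.card_congr
    { toFun := fun s ↦ ⟨s.1.1, ⟨s.1.2, fix_base_pos pb_L2.1 s.2⟩⟩
      invFun := fun s ↦ ⟨⟨s.1, s.2.1⟩, smul_pos (by rw [show L2 M2 = B2 from pb_L2.1]; exact s.2.2)⟩
      left_inv := fun s ↦ rfl
      right_inv := fun s ↦ rfl }

theorem card_TSt_le : Nat.card (T ⊓ St : Subgroup S1) ≤ 7800 := by
  have hidx : 2 ≤ eps.ker.index := by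
    rcases Nat.lt_or_ge eps.ker.index 2 with h | h
    · exfalso
      have hne : eps.ker.index ≠ 0 := Subgroup.index_ne_zero_of_finite
      have he : eSt ∈ eps.ker := by
        rw [(Subgroup.index_eq_one (H := eps.ker)).1 (by omega)]
        exact Subgroup.mem_top _
      rw [MonoidHom.mem_ker, eps_eSt] at he
      exact absurd he (by decide)
    · exact h
  have hle : Nat.card (T ⊓ St : Subgroup S1) ≤ Nat.card eps.ker :=
    Nat.card_le_card_of_injective
      (fun t ↦ (⟨⟨t.1, t.2.2⟩, eps_T t.2.1⟩ : eps.ker))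
      fun a b h ↦ Subtype.ext (congrArg (fun z : eps.ker ↦ ((z : St) : S1)) h)
  have := eps.ker.card_mul_index
  rw [card_St] at this
  nlinarith

/-- The two generators of the stabiliser inside the subgroup. -/
noncomputable def hg (g : ℕ) : S1 := wv tg (bif Nat.beq g 0 then Dat.h1W else Dat.h2W)

theorem hg_mem (g : ℕ) : hg g ∈ T := wv_mem tg_mem _

theorem hg_val : ∀ g < 2, ∀ m : Fin 2304, (hg g • m).val = stepH g m.val := by
  intro g hg' m
  obtain ⟨h1, h2⟩ : Dat.h1W.all (fun g ↦ Nat.blt g 2) = true ∧ Dat.h2W.all (fun g ↦ Nat.blt g 2) = true := by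
    have h := words_ok
    simp only [Bool.and_eq_true, decide_eq_true_eq] at h
    exact ⟨h.1, h.2.1⟩
  interval_cases g
  · show (wv tg Dat.h1W • m).val = _
    rw [wv_pos tg_val _ h1]
    have := allB_spec_zero stepH1_ok (show 2304 ≤ 2 ^ 12 by norm_num) m.isLt
    simp only [Bool.or_eq_true] at this
    rcases this with h | h
    · exact absurd (Nat.le_of_ble_eq_true h) (by omega)
    · exact Nat.eq_of_beq_eq_true h
  · show (wv tg Dat.h2W • m).val = _
    rw [wv_pos tg_val _ h2]
    have := allB_spec_zero stepH2_ok (show 2304 ≤ 2 ^ 12 by norm_num) m.isLt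
    simp only [Bool.or_eq_true] at this
    rcases this with h | h
    · exact absurd (Nat.le_of_ble_eq_true h) (by omega)
    · exact Nat.eq_of_beq_eq_true h

/-- The stabiliser inside the subgroup, by generators. -/
noncomputable def Hh : Subgroup S1 := Subgroup.closure {hg 0, hg 1}

theorem hg_Hh (g : ℕ) : hg g ∈ Hh := by
  refine Subgroup.subset_closure ?_
  rcases Nat.eq_zero_or_pos g with rfl | h
  · exact Or.inl rfl
  · refine Or.inr ?_
    show hg g = hg 1
    have : Nat.beq g 0 = false := by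
      rcases h' : Nat.beq g 0
      · rfl
      · exact absurd (Nat.eq_of_beq_eq_true h') (by omega)
    rw [hg, hg, this]
    rfl

theorem hg_fix (g : ℕ) (hg' : g < 2) : hg g • M2 = M2 := Fin.ext (by
  rw [hg_val g hg']
  interval_cases g
  · exact hMoves_ok.1
  · exact hMoves_ok.2.1)

theorem Hh_le : Hh ≤ T ⊓ St := by
  refine (Subgroup.closure_le _).2 ?_
  rintro _ (rfl | rfl)
  · exact ⟨hg_mem 0, hg_fix 0 (by norm_num)⟩
  · exact ⟨hg_mem 1, hg_fix 1 (by norm_num)⟩

theorem treeH_class (m : Fin 2304) : ∃ t ∈ Hh, ∃ hr : Dat.rootsH.getD (tCls Dat.treeH m.val) 2304 < 2304,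
    t • (⟨_, hr⟩ : Fin 2304) = m := by
  generalize hd : tDep Dat.treeH m.val = d
  induction d using Nat.strong_induction_on generalizing m with
  | _ d ih =>
    have := allB_spec_zero treeH_ok (show 2304 ≤ 2 ^ 12 by norm_num) m.isLt
    rw [Bool.or_eq_true] at this
    rcases this with h | h
    · exact absurd (Nat.le_of_ble_eq_true h) (by omega)
    rcases nodeOK_spec h with ⟨-, -, c⟩ | ⟨hp, hg', hlt, hc, he⟩
    · exact ⟨1, one_mem _, by rw [c]; exact m.isLt, by rw [one_smul]; exact Fin.ext c⟩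
    · obtain ⟨t, ht, hr, e⟩ := ih _ (hd ▸ hlt) ⟨_, hp⟩ rfl
      refine ⟨hg (tGen Dat.treeH m.val) * t, mul_mem (hg_Hh _) ht, hc ▸ hr, ?_⟩
      rw [mul_smul, show (⟨Dat.rootsH.getD (tCls Dat.treeH m.val) 2304, hc ▸ hr⟩ : Fin 2304) = ⟨_, hr⟩ from
        Fin.ext (congrArg (fun c ↦ Dat.rootsH.getD c 2304) hc.symm), e]
      exact Fin.ext ((hg_val _ hg' _).trans he)

theorem l3_facts (j : Fin 300) : Dat.l3T.get 16 j.val < 2304 ∧ Dat.l3P.get 16 (Dat.l3T.get 16 j.val) = j.val ∧
    sigc Dat.base2 (l2 (Dat.l3T.get 16 j.val)) = sigc Dat.base2 Dat.base3 := by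
  have := allB_spec_zero l3_ok (show 300 ≤ 2 ^ 9 by norm_num) j.isLt
  simp only [Bool.or_eq_true, Bool.and_eq_true] at this
  rcases this with h | ⟨h1, h2, h3⟩
  · exact absurd (Nat.le_of_ble_eq_true h) (by omega)
  · exact ⟨Nat.le_of_ble_eq_true h1, Nat.eq_of_beq_eq_true h2, Nat.eq_of_beq_eq_true h3⟩

theorem l3_inj : Function.Injective l3 := fun a b h ↦ Fin.ext (by
  have h' : Dat.l3T.get 16 a.val % 2304 = Dat.l3T.get 16 b.val % 2304 := congrArg Fin.val h
  rw [Nat.mod_eq_of_lt (l3_facts a).1, Nat.mod_eq_of_lt (l3_facts b).1] at h'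
  rw [← (l3_facts a).2.1, ← (l3_facts b).2.1, h'])

theorem Hh_orbit_M3 (j : Fin 300) : ∃ t ∈ Hh, t • M3 = l3 j := by
  obtain ⟨t, ht, hr, e⟩ := treeH_class (l3 j)
  refine ⟨t, ht, ?_⟩
  have hc := allB_spec_zero rootsH_ok.2.2.2 (show 300 ≤ 2 ^ 9 by norm_num) j.isLt
  simp only [Bool.or_eq_true] at hc
  have hcls : tCls Dat.treeH (l3 j).val = 1 := by
    rcases hc with h | h
    · exact absurd (Nat.le_of_ble_eq_true h) (by omega)
    · show tCls Dat.treeH (Dat.l3T.get 16 j.val % 2304) = 1
      rw [Nat.mod_eq_of_lt (l3_facts j).1]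
      exact Nat.eq_of_beq_eq_true h
  conv_rhs => rw [← e]
  refine congrArg (t • ·) (Fin.ext ?_)
  show Dat.pb3 = Dat.rootsH.getD _ 2304
  rw [hcls, List.getD_eq_getElem _ _ (by rw [rootsH_ok.1]; norm_num),
    ← List.getD_eq_getElem _ 0 (by rw [rootsH_ok.1]; norm_num)]
  exact rootsH_ok.2.2.1.symm

theorem card_ge {G X : Type*} [Group G] [MulAction G X] [Finite G] (H : Subgroup G) (x : X) {n c : ℕ}
    (t : Fin n → X) (ht : Function.Injective t) (h : ∀ i, ∃ g ∈ H, g • x = t i)
    (hc : c ≤ Nat.card (H ⊓ stabilizer G x : Subgroup G)) : n * c ≤ Nat.card H := by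
  rw [card_step H x]
  refine Nat.mul_le_mul ?_ hc
  have hsub : Set.range t ⊆ orbit H x := by
    rintro _ ⟨i, rfl⟩
    obtain ⟨g, hg, e⟩ := h i
    exact ⟨⟨g, hg⟩, e⟩
  have hfin : (orbit H x).Finite := Set.finite_range _
  calc n = (Set.range t).ncard := by rw [Set.ncard_range_of_injective ht, Nat.card_fin]
    _ ≤ _ := Set.ncard_le_ncard hsub hfin

theorem kW_all : Dat.kW.all (fun g ↦ Nat.blt g 2) = true := by
  have h := words_ok
  simp only [Bool.and_eq_true, decide_eq_true_eq] at h
  exact h.2.2.1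

theorem card_Hh_ge : 300 * (13 * 2) ≤ Nat.card Hh := by
  refine card_ge Hh M3 l3 l3_inj Hh_orbit_M3 ?_
  have hfix3 : hg 0 • M3 = M3 := Fin.ext ((hg_val 0 (by norm_num) M3).trans hMoves_ok.2.2.1)
  have hrep : ∀ i : ℕ, (List.replicate i 0).all (fun g ↦ Nat.blt g 2) = true := fun i ↦ by simp
  refine card_ge (Hh ⊓ stabilizer S1 M3) M4 (fun i : Fin 13 ↦ hg 0 ^ i.val • M4) (fun a b h ↦ ?_)
    (fun i ↦ ⟨hg 0 ^ i.val, ⟨pow_mem (hg_Hh 0) _, pow_mem (show hg 0 ∈ stabilizer S1 M3 from hfix3) _⟩, rfl⟩) ?_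
  · refine h1orbit_ok a b ?_
    have h' := congrArg Fin.val h
    simp only [← wv_replicate hg 0, wv_pos hg_val _ (hrep _)] at h'
    change runW stepH (List.replicate a.val 0) Dat.pb4 = runW stepH (List.replicate b.val 0) Dat.pb4 at h'
    show Nat.beq _ _ = true
    rw [h']
    exact Nat.beq_refl _
  · set k := wv hg Dat.kW with hk
    obtain ⟨-, -, -, -, -, k3, k4, k5, -⟩ := hMoves_ok
    have hkv : ∀ m : Fin 2304, (k • m).val = runW stepH Dat.kW m.val := wv_pos hg_val _ kW_all
    have hkmem : k ∈ (Hh ⊓ stabilizer S1 M3) ⊓ stabilizer S1 M4 :=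
      ⟨⟨wv_mem hg_Hh _, Fin.ext ((hkv M3).trans k3)⟩, Fin.ext ((hkv M4).trans k4)⟩
    have hne : k ≠ 1 := fun e ↦ k5 (by
      have h' := hkv M5
      rw [e, one_smul] at h'
      exact h'.symm)
    haveI : Nontrivial ((Hh ⊓ stabilizer S1 M3) ⊓ stabilizer S1 M4 : Subgroup S1) :=
      ⟨⟨k, hkmem⟩, 1, fun e ↦ hne (congrArg Subtype.val e)⟩
    exact Finite.one_lt_card

/-- **Orders.** -/
theorem card_T : Nat.card T = 17971200 ∧ Nat.card Hh = 7800 ∧ T ⊓ St = Hh := by
  have h1 := card_Hh_ge
  have h2 := card_TSt_le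
  have h3 : Nat.card Hh ≤ Nat.card (T ⊓ St : Subgroup S1) := Subgroup.card_le_of_le Hh_le
  have h4 := card_step T M2
  have h5 : orbit T M2 = Set.univ := orbit_eq_univ T M2
  rw [h5, Set.ncard_univ, Nat.card_fin] at h4
  refine ⟨?_, by omega, (Subgroup.eq_of_le_of_card_ge Hh_le (by omega)).symm⟩
  have : Nat.card (T ⊓ stabilizer S1 M2 : Subgroup S1) = 7800 := by
    show Nat.card (T ⊓ St : Subgroup S1) = 7800
    omega
  rw [h4, this]

end Cfsg.Agent.RuModel
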