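import Cfsg.Agent.RuModel.Order
import Cfsg.Agent.RuModel.GrpChkB
import Cfsg.Agent.RuModel.GrpChkC
import Cfsg.Agent.RuModel.Abstract

/-!
# The index two subgroup of a point stabiliser (owner: helper52)
-/

set_option autoImplicit false
set_option maxRecDepth 4000

open Cfsg.Spor Cfsg.Agent.CosetCert MulAction
open scoped BigOperators

namespace Cfsg.Agent.RuModel

theorem L2_sig (m : Fin 2304) : sigc Dat.base1 (L2 m).val = sigc Dat.base1 Dat.base2 := (l2_spec m.isLt).2.2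

/-- The stabiliser of the first point acting on the 2304 positions. -/
noncomputable instance posAction : MulAction S1 (Fin 2304) where
  smul f m := (image_L2 f.2 (L2_sig m)).choose
  one_smul m := L2_inj (by
    show L2 (image_L2 (1 : S1).2 (L2_sig m)).choose = L2 m
    rw [(image_L2 (1 : S1).2 (L2_sig m)).choose_spec, Subgroup.coe_one, one_smul])
  mul_smul f g m := L2_inj (by
    show L2 (image_L2 (f * g).2 (L2_sig m)).choose =
      L2 (image_L2 f.2 (L2_sig (image_L2 g.2 (L2_sig m)).choose)).choose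
    rw [(image_L2 (f * g).2 (L2_sig m)).choose_spec,
      (image_L2 f.2 (L2_sig (image_L2 g.2 (L2_sig m)).choose)).choose_spec,
      (image_L2 g.2 (L2_sig m)).choose_spec, Subgroup.coe_mul, mul_smul])

theorem L2_smul (f : S1) (m : Fin 2304) : L2 (f • m) = (f : fourRu) • L2 m :=
  (image_L2 f.2 (L2_sig m)).choose_spec

theorem smul_pos {f : S1} {m m' : Fin 2304} (h : (f : fourRu) • L2 m = L2 m') : f • m = m' :=
  L2_inj ((L2_smul f m).trans h)

/-- The position of the second base point. -/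
def M2 : Fin 2304 := ⟨Dat.pb2, base_pos.2.2.2.2.2.2.2.2.1⟩

/-- The position of the third base point. -/
def M3 : Fin 2304 := ⟨Dat.pb3, base_pos.2.2.2.2.2.2.2.2.2.1⟩

/-- The position of the fourth base point. -/
def M4 : Fin 2304 := ⟨Dat.pb4, base_pos.2.2.2.2.2.2.2.2.2.2.1⟩

/-- The position of the fifth base point. -/
def M5 : Fin 2304 := ⟨Dat.pb5, base_pos.2.2.2.2.2.2.2.2.2.2.2⟩

theorem fix_base_pos {f : S1} {m : Fin 2304} {b : Fin 16240} (hb : L2 m = b) (h : f • m = m) :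
    (f : fourRu) • b = b := by
  rw [← hb, ← L2_smul, h]

theorem pos_eq_one {f : S1} (h2 : f • M2 = M2) (h3 : f • M3 = M3) (h4 : f • M4 = M4) (h5 : f • M5 = M5) :
    f = 1 :=
  Subtype.ext (eq_one_of_fix f.2 (fix_base_pos pb_L2.1 h2) (fix_base_pos pb_L2.2.1 h3)
    (fix_base_pos pb_L2.2.2.1 h4) (fix_base_pos pb_L2.2.2.2 h5))

instance : FaithfulSMul S1 (Fin 2304) where
  eq_of_smul_eq_smul {f g} h := by
    have e : ∀ m : Fin 2304, (g⁻¹ * f) • m = m := fun m ↦ by rw [mul_smul, h m, inv_smul_smul]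
    exact (inv_mul_eq_one.1 (pos_eq_one (e M2) (e M3) (e M4) (e M5))).symm

theorem stepT_spec {g : ℕ} (hg : g < 2) (m : Fin 2304) :
    stepT g m.val < 2304 ∧ imP (7 + g) (l2 m.val) = l2 (stepT g m.val) := by
  have := allB_spec_zero stepT_ok (show 2304 ≤ 2 ^ 12 by norm_num) m.isLt
  simp only [Bool.or_eq_true, Bool.and_eq_true] at this
  rcases this with h | ⟨h1, h2, h3, h4⟩
  · exact absurd (Nat.le_of_ble_eq_true h) (by omega)
  · interval_cases g
    · exact ⟨Nat.le_of_ble_eq_true h3, Nat.eq_of_beq_eq_true h1⟩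
    · exact ⟨Nat.le_of_ble_eq_true h4, Nat.eq_of_beq_eq_true h2⟩

theorem gen_S1 (g : Fin 2) : gen ⟨7 + g.val, by omega⟩ ∈ S1 := by
  show (gen ⟨(⟨7 + g.val, by omega⟩ : Fin 9).val, by omega⟩ : fourRu) • B1 = B1
  rw [gen_smul]
  refine Fin.ext ?_
  have h := fixBase1_ok
  simp only [Bool.and_eq_true, decide_eq_true_eq] at h
  rcases g with ⟨g, hg⟩
  interval_cases g
  · exact Nat.eq_of_beq_eq_true h.1
  · exact Nat.eq_of_beq_eq_true h.2

/-- The two generators. -/
noncomputable def tg (g : ℕ) : S1 :=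
  ⟨gen ⟨7 + g % 2, by omega⟩, gen_S1 ⟨g % 2, Nat.mod_lt _ (by norm_num)⟩⟩

theorem tg_smul {g : ℕ} (hg : g < 2) (m : Fin 2304) :
    tg g • m = ⟨stepT g m.val, (stepT_spec hg m).1⟩ := by
  refine smul_pos ?_
  show (gen ⟨(⟨7 + g % 2, by omega⟩ : Fin 9).val, by omega⟩ : fourRu) • L2 m = _
  rw [gen_smul]
  refine Fin.ext ?_
  show imP (7 + g % 2) (l2 m.val) = l2 (stepT g m.val)
  rw [Nat.mod_eq_of_lt hg]
  exact (stepT_spec hg m).2

/-- The subgroup generated by the two generators. -/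
noncomputable def T : Subgroup S1 := Subgroup.closure {tg 0, tg 1}

theorem tg_mem (g : ℕ) : tg g ∈ T := by
  refine Subgroup.subset_closure ?_
  rcases Nat.mod_two_eq_zero_or_one g with h | h
  · left; exact Subtype.ext (congrArg gen (Fin.ext (show 7 + g % 2 = 7 + 0 % 2 by omega)))
  · right; exact Subtype.ext (congrArg gen (Fin.ext (show 7 + g % 2 = 7 + 1 % 2 by omega)))

/-- The value of a word, first letter first. -/
noncomputable def wv {G : Type*} [Monoid G] (f : ℕ → G) : List ℕ → G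
  | [] => 1
  | g :: w => wv f w * f g

theorem wv_mem {G : Type*} [Group G] {f : ℕ → G} {H : Subgroup G} (h : ∀ g, f g ∈ H) :
    ∀ w, wv f w ∈ H
  | [] => one_mem _
  | g :: w => mul_mem (wv_mem h w) (h g)

theorem wv_append {G : Type*} [Monoid G] (f : ℕ → G) : ∀ u v, wv f (u ++ v) = wv f v * wv f u
  | [], v => by simp [wv]
  | g :: u, v => by rw [List.cons_append, wv, wv, wv_append f u v, mul_assoc]

theorem wv_replicate {G : Type*} [Monoid G] (f : ℕ → G) (g : ℕ) :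
    ∀ n, wv f (List.replicate n g) = f g ^ n
  | 0 => by simp [wv]
  | n + 1 => by rw [List.replicate_succ, wv, wv_replicate f g n, ← pow_succ]

theorem wv_pos {s : ℕ → ℕ → ℕ} {f : ℕ → S1}
    (h : ∀ g < 2, ∀ m : Fin 2304, (f g • m).val = s g m.val) :
    ∀ (w : List ℕ), w.all (fun g ↦ Nat.blt g 2) = true → ∀ m : Fin 2304, (wv f w • m).val = runW s w m.val
  | [], _, m => by rw [wv, one_smul]; rfl
  | g :: w, hw, m => by
    simp only [List.all_cons, Bool.and_eq_true] at hw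
    rw [wv, mul_smul, wv_pos h w hw.2 (f g • m), h g (Nat.le_of_ble_eq_true hw.1) m]
    rfl

theorem tg_val : ∀ g < 2, ∀ m : Fin 2304, (tg g • m).val = stepT g m.val :=
  fun _ hg m ↦ by rw [tg_smul hg]

theorem rels_all : Dat.rels.all (fun w ↦ w.all fun g ↦ Nat.blt g 2) = true := by
  have h := words_ok
  simp only [Bool.and_eq_true, decide_eq_true_eq] at h
  exact h.2.2.2.2.2

theorem rel_word (r : ℕ) : (Dat.rels.getD r []).all (fun g ↦ Nat.blt g 2) = true := by
  rcases Nat.lt_or_ge r Dat.rels.length with h | h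
  · rw [List.getD_eq_getElem _ _ h]
    exact List.all_eq_true.1 rels_all _ (List.getElem_mem h)
  · rw [List.getD_eq_default _ _ h]; rfl

theorem rel_eq_one {r : ℕ} (hr : r < 6) : wv tg (Dat.rels.getD r []) = 1 := by
  have e : ∀ i : Fin 4, ∀ m : Fin 2304, m.val = [Dat.pb2, Dat.pb3, Dat.pb4, Dat.pb5].getD i.val 0 →
      wv tg (Dat.rels.getD r []) • m = m := fun i m hm ↦ Fin.ext (by
    rw [wv_pos tg_val _ (rel_word r), hm]
    exact Nat.eq_of_beq_eq_true (rels_ok ⟨r, hr⟩ i))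
  exact pos_eq_one (e 0 M2 rfl) (e 1 M3 rfl) (e 2 M4 rfl) (e 3 M5 rfl)

theorem nodeOK_spec {t : PTree} {roots : List ℕ} {s : ℕ → ℕ → ℕ} {n i : ℕ}
    (h : nodeOK t roots s n i = true) :
    (tDep t i = 0 ∧ tCls t i < roots.length ∧ roots.getD (tCls t i) n = i) ∨
    (tPar t i < n ∧ tGen t i < 2 ∧ tDep t (tPar t i) < tDep t i ∧ tCls t (tPar t i) = tCls t i ∧
      s (tGen t i) (tPar t i) = i) := by
  simp only [nodeOK, Bool.or_eq_true, Bool.and_eq_true] at h
  rcases h with ⟨a, b, c⟩ | ⟨a, b, c, d, e⟩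
  · exact .inl ⟨Nat.eq_of_beq_eq_true a, Nat.le_of_ble_eq_true b, Nat.eq_of_beq_eq_true c⟩
  · exact .inr ⟨Nat.le_of_ble_eq_true a, Nat.le_of_ble_eq_true b, Nat.le_of_ble_eq_true c,
      Nat.eq_of_beq_eq_true d, Nat.eq_of_beq_eq_true e⟩

theorem treeTwo_spec {m : ℕ} (hm : m < 2304) :
    (tDep Dat.treeTwo m = 0 ∧ m = Dat.pb2) ∨
    (tPar Dat.treeTwo m < 2304 ∧ tGen Dat.treeTwo m < 2 ∧
      tDep Dat.treeTwo (tPar Dat.treeTwo m) < tDep Dat.treeTwo m ∧
      stepT (tGen Dat.treeTwo m) (tPar Dat.treeTwo m) = m) := by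
  have := allB_spec_zero treeTwo_ok (show 2304 ≤ 2 ^ 12 by norm_num) hm
  rw [Bool.or_eq_true] at this
  rcases this with h | h
  · exact absurd (Nat.le_of_ble_eq_true h) (by omega)
  rcases nodeOK_spec h with ⟨a, b, c⟩ | ⟨a, b, c, -, e⟩
  · refine .inl ⟨a, ?_⟩
    rw [show tCls Dat.treeTwo m = 0 from Nat.lt_one_iff.1 b] at c
    exact c.symm
  · exact .inr ⟨a, b, c, e⟩

/-- The transversal along the tree, with fuel. -/
noncomputable def wF : ℕ → ℕ → S1
  | 0, _ => 1
  | d + 1, m => if tDep Dat.treeTwo m = 0 then 1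
      else tg (tGen Dat.treeTwo m) * wF d (tPar Dat.treeTwo m)

/-- The transversal. -/
noncomputable def wT (m : Fin 2304) : S1 := wF (tDep Dat.treeTwo m.val) m.val

theorem wF_stable : ∀ d m, m < 2304 → tDep Dat.treeTwo m ≤ d → wF d m = wF (tDep Dat.treeTwo m) m := by
  intro d
  induction d using Nat.strong_induction_on with
  | _ d ih =>
    intro m hm hd
    rcases treeTwo_spec hm with ⟨h0, -⟩ | ⟨hp, -, hlt, -⟩
    · rw [h0]
      cases d with
      | zero => rfl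
      | succ d =>
        show (if tDep Dat.treeTwo m = 0 then (1 : S1) else _) = 1
        rw [if_pos h0]
    · obtain ⟨e, he⟩ : ∃ e, d = e + 1 := ⟨d - 1, by omega⟩
      obtain ⟨k, hk⟩ : ∃ k, tDep Dat.treeTwo m = k + 1 := ⟨tDep Dat.treeTwo m - 1, by omega⟩
      subst he
      rw [hk, wF, wF, if_neg (by omega), if_neg (by omega), ih e (by omega) _ hp (by omega),
        ih k (by omega) _ hp (by omega)]

theorem wF_mem : ∀ d m, wF d m ∈ T
  | 0, _ => one_mem _
  | d + 1, m => by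
    rw [wF]
    split
    · exact one_mem _
    · exact mul_mem (tg_mem _) (wF_mem d _)

theorem root_depth : tDep Dat.treeTwo Dat.pb2 = 0 := by decide +kernel

theorem wT_root : wT M2 = 1 := by
  show wF (tDep Dat.treeTwo Dat.pb2) Dat.pb2 = 1
  rw [root_depth]
  rfl

theorem wT_edge {m : Fin 2304} (h : tDep Dat.treeTwo m.val ≠ 0) :
    ∃ (hp : tPar Dat.treeTwo m.val < 2304), tGen Dat.treeTwo m.val < 2 ∧
      wT m = tg (tGen Dat.treeTwo m.val) * wT ⟨_, hp⟩ ∧
      tg (tGen Dat.treeTwo m.val) • (⟨_, hp⟩ : Fin 2304) = m := by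
  rcases treeTwo_spec m.isLt with ⟨h0, -⟩ | ⟨hp, hg, hlt, he⟩
  · exact absurd h0 h
  refine ⟨hp, hg, ?_, by rw [tg_smul hg]; exact Fin.ext he⟩
  obtain ⟨k, hk⟩ : ∃ k, tDep Dat.treeTwo m.val = k + 1 := ⟨tDep Dat.treeTwo m.val - 1, by omega⟩
  rw [wT, hk, wF, if_neg h, wF_stable k _ hp (by omega)]
  rfl

theorem wT_smul (m : Fin 2304) : wT m • M2 = m := by
  generalize hd : tDep Dat.treeTwo m.val = d
  induction d using Nat.strong_induction_on generalizing m with
  | _ d ih =>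
    rcases treeTwo_spec m.isLt with ⟨h0, hm⟩ | ⟨hp, -, hlt, -⟩
    · rw [show m = M2 from Fin.ext hm, wT_root, one_smul]
    · obtain ⟨hp', -, e, e'⟩ := wT_edge (m := m) (by omega)
      rw [e, mul_smul, ih _ (hd ▸ hlt) ⟨_, hp'⟩ rfl, e']

instance : IsPretransitive T (Fin 2304) := by
  refine ⟨fun a b ↦ ⟨⟨wT b * (wT a)⁻¹, mul_mem (wF_mem _ _) (inv_mem (wF_mem _ _))⟩, ?_⟩⟩
  show (wT b * (wT a)⁻¹) • a = b
  rw [mul_smul, inv_smul_eq_iff.2 (wT_smul a).symm, wT_smul]

end Cfsg.Agent.RuModel
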