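import Cfsg.Agent.RuModel.TitsCard

/-!
# The index two subgroup of a point stabiliser is simple (owner: helper52)
-/

set_option autoImplicit false
set_option maxRecDepth 4000
set_option maxHeartbeats 1000000

open Cfsg.Spor Cfsg.Agent.CosetCert MulAction
open scoped BigOperators

namespace Cfsg.Agent.RuModel

theorem allB_intro {f : ℕ → Bool} (h : ∀ i, f i = true) : ∀ {d lo : ℕ}, allB f d lo = true
  | 0, lo => h lo
  | d + 1, lo => by
    show (allB f d lo && allB f d (lo + Nat.shiftLeft 1 d)) = true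
    rw [allB_intro h, allB_intro h]; rfl

theorem Hh_fix2 {f : S1} (hf : f ∈ Hh) : f • M2 = M2 := (Hh_le hf).2

theorem Hh_l3 {f : S1} (hf : f ∈ Hh) : ∃ j, l3 j = f • M3 := by
  refine level3_spec ?_
  have h := fix_sigc (fix_base_pos pb_L2.1 (Hh_fix2 hf)) (L2 M3)
  rw [← L2_smul] at h
  exact h.trans (congrArg (sigc Dat.base2) (base_pos.2.2.2.2.2.1))

theorem rot_hg (w : List ℕ) (hw : w.all (fun g ↦ Nat.blt g 2) = true) (m : Fin 2304) :
    (wv hg w • m).val = runW stepH w m.val := wv_pos hg_val w hw m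

theorem eq_of_base {u v : S1} (h : ∀ i : Fin 4, ∀ m : Fin 2304,
    m.val = [Dat.pb2, Dat.pb3, Dat.pb4, Dat.pb5].getD i.val 0 → (u • m).val = (v • m).val) : u = v := by
  have e : ∀ (i : Fin 4) (m : Fin 2304), m.val = [Dat.pb2, Dat.pb3, Dat.pb4, Dat.pb5].getD i.val 0 →
      (v⁻¹ * u) • m = m := fun i m hm ↦ by
    rw [mul_smul, inv_smul_eq_iff]; exact Fin.ext (h i m hm)
  exact (inv_mul_eq_one.1 (pos_eq_one (e 0 M2 rfl) (e 1 M3 rfl) (e 2 M4 rfl) (e 3 M5 rfl))).symm

theorem hg_pow : hg 0 ^ 13 = 1 ∧ hg 1 ^ 3 = 1 ∧ hg 0 ≠ 1 ∧ hg 1 ≠ 1 := by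
  refine ⟨?_, ?_, fun e ↦ ?_, fun e ↦ ?_⟩
  · rw [← wv_replicate]
    refine eq_of_base fun i m hm ↦ ?_
    rw [one_smul, rot_hg _ (by decide), hm]
    exact Nat.eq_of_beq_eq_true (hBase_ok i).1
  · rw [← wv_replicate]
    refine eq_of_base fun i m hm ↦ ?_
    rw [one_smul, rot_hg _ (by decide), hm]
    exact Nat.eq_of_beq_eq_true (hBase_ok i).2.1
  · have h := hg_val 0 (by norm_num) M4
    rw [e, one_smul] at h
    exact hMoves_ok.2.2.2.1 h.symm
  · have h := hg_val 1 (by norm_num) M3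
    rw [e, one_smul] at h
    exact hMoves_ok.2.2.2.2.1 h.symm

theorem wv_flatMap_mem {C : Subgroup S1} {f : ℕ → S1} (s : ℕ → List ℕ) :
    ∀ w : List ℕ, (∀ g ∈ w, wv f (s g) ∈ C) → wv f (w.flatMap s) ∈ C
  | [], _ => one_mem _
  | g :: w, h => by
    rw [List.flatMap_cons, wv_append]
    exact mul_mem (wv_flatMap_mem s w fun x hx ↦ h x (List.mem_cons_of_mem _ hx)) (h g List.mem_cons_self)

theorem genW_all : Dat.genW1.all (fun g ↦ Nat.blt g 2) = true ∧ Dat.genW2.all (fun g ↦ Nat.blt g 2) = true := by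
  have h := words_ok
  simp only [Bool.and_eq_true, decide_eq_true_eq] at h
  exact ⟨h.2.2.2.1, h.2.2.2.2.1⟩

theorem flat_all {w : List ℕ} (hw : w.all (fun g ↦ Nat.blt g 2) = true) {s : ℕ → List ℕ}
    (hs : ∀ g < 2, (s g).all (fun g ↦ Nat.blt g 2) = true) :
    (w.flatMap s).all (fun g ↦ Nat.blt g 2) = true := by
  rw [List.all_eq_true]
  intro x hx
  obtain ⟨g, hg', hx'⟩ := List.mem_flatMap.1 hx
  exact List.all_eq_true.1 (hs g (Nat.le_of_ble_eq_true (List.all_eq_true.1 hw g hg'))) x hx'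

theorem conj_one : hg 1 * hg 0 * (hg 1)⁻¹ = wv hg [1, 1, 0, 1] := by
  have h : (hg 1)⁻¹ = hg 1 ^ 2 := inv_eq_of_mul_eq_one_right (by rw [← pow_succ', hg_pow.2.1])
  rw [h, pow_two]
  simp [wv, mul_assoc]

theorem conj_two : hg 0 * hg 1 * (hg 0)⁻¹ = wv hg (List.replicate 12 0 ++ [1, 0]) := by
  have h : (hg 0)⁻¹ = hg 0 ^ 12 := inv_eq_of_mul_eq_one_right (by rw [← pow_succ', hg_pow.1])
  rw [wv_append, wv_replicate, h]
  simp [wv, mul_assoc]

theorem gen_words : Hh ≤ Subgroup.closure {hg 0, hg 1 * hg 0 * (hg 1)⁻¹} ∧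
    Hh ≤ Subgroup.closure {hg 1, hg 0 * hg 1 * (hg 0)⁻¹} := by
  constructor
  · refine (Subgroup.closure_le _).2 ?_
    rintro _ (rfl | rfl)
    · exact Subgroup.subset_closure (Or.inl rfl)
    · have e : hg 1 = wv hg (Dat.genW1.flatMap fun g ↦ [[0], [1, 1, 0, 1]].getD g []) :=
        eq_of_base fun i m hm ↦ by
          rw [hg_val 1 (by norm_num), rot_hg _ (flat_all genW_all.1 fun g hg' ↦ by
            interval_cases g <;> decide), hm]
          exact (Nat.eq_of_beq_eq_true (hBase_ok i).2.2.1).symm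
      rw [SetLike.mem_coe]
      refine (congrArg (fun z ↦ z ∈ Subgroup.closure _) e).mpr (wv_flatMap_mem _ _ fun g hg' ↦ ?_)
      have := Nat.le_of_ble_eq_true (List.all_eq_true.1 genW_all.1 g hg')
      rcases (show g = 0 ∨ g = 1 by omega) with rfl | rfl
      · show wv hg [0] ∈ _
        simp only [wv, one_mul]
        exact Subgroup.subset_closure (Or.inl rfl)
      · show wv hg [1, 1, 0, 1] ∈ _
        rw [← conj_one]
        exact Subgroup.subset_closure (Or.inr rfl)
  · refine (Subgroup.closure_le _).2 ?_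
    rintro _ (rfl | rfl)
    · have e : hg 0 = wv hg (Dat.genW2.flatMap fun g ↦ [[1], List.replicate 12 0 ++ [1, 0]].getD g []) :=
        eq_of_base fun i m hm ↦ by
          rw [hg_val 0 (by norm_num), rot_hg _ (flat_all genW_all.2 fun g hg' ↦ by
            interval_cases g <;> decide), hm]
          exact (Nat.eq_of_beq_eq_true (hBase_ok i).2.2.2).symm
      rw [SetLike.mem_coe]
      refine (congrArg (fun z ↦ z ∈ Subgroup.closure _) e).mpr (wv_flatMap_mem _ _ fun g hg' ↦ ?_)
      have := Nat.le_of_ble_eq_true (List.all_eq_true.1 genW_all.2 g hg')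
      rcases (show g = 0 ∨ g = 1 by omega) with rfl | rfl
      · show wv hg [1] ∈ _
        simp only [wv, one_mul]
        exact Subgroup.subset_closure (Or.inl rfl)
      · show wv hg (List.replicate 12 0 ++ [1, 0]) ∈ _
        rw [← conj_two]
        exact Subgroup.subset_closure (Or.inr rfl)
    · exact Subgroup.subset_closure (Or.inl rfl)

theorem closure_top {H : Subgroup S1} {a b : S1} (ha : a ∈ H) (hb : b ∈ H)
    (h : H ≤ Subgroup.closure {a, b}) : Subgroup.closure {(⟨a, ha⟩ : H), ⟨b, hb⟩} = ⊤ := by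
  apply Subgroup.map_injective H.subtype_injective
  rw [MonoidHom.map_closure, ← MonoidHom.range_eq_map, Subgroup.range_subtype, Set.image_pair]
  refine le_antisymm ?_ h
  rw [Subgroup.closure_le]
  rintro _ (rfl | rfl) <;> assumption

instance : FaithfulSMul Hh (orbit Hh M3) where
  eq_of_smul_eq_smul {f g} h := by
    suffices hk : ((g⁻¹ * f : Hh) : S1) = 1 by
      exact (inv_mul_eq_one.1 (Subtype.ext hk : g⁻¹ * f = 1)).symm
    set k := g⁻¹ * f with hkdef
    have hfix : ∀ j : Fin 300, (k : S1) • l3 j = l3 j := fun j ↦ by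
      obtain ⟨t, ht, e⟩ := Hh_orbit_M3 j
      have hh := congrArg Subtype.val (h ⟨(⟨t, ht⟩ : Hh) • M3, mem_orbit _ _⟩)
      change (f : S1) • (t • M3) = (g : S1) • (t • M3) at hh
      rw [e] at hh
      rw [hkdef, Subgroup.coe_mul, Subgroup.coe_inv, mul_smul, hh, inv_smul_smul]
    have h2 : (k : S1) • M2 = M2 := Hh_fix2 k.2
    obtain ⟨j3, hj3⟩ := level3_spec (m := M3) (congrArg (sigc Dat.base2) base_pos.2.2.2.2.2.1)
    have h3 : (k : S1) • M3 = M3 := by rw [← hj3, hfix]
    have g2 := fix_base_pos pb_L2.1 h2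
    have g3 := fix_base_pos pb_L2.2.1 h3
    have sep : ∀ (b : Fin 16240) (y : Fin 2304), sepL3 b.val y.val = true →
        L2 y = ((k : S1) : fourRu) • b → L2 y = b := by
      intro b y hs hy
      simp only [sepL3, Bool.or_eq_true, Bool.not_eq_true'] at hs
      rcases hs with hs | hs
      · exact Fin.ext (Nat.eq_of_beq_eq_true hs)
      · exfalso
        rw [← Bool.not_eq_true] at hs
        refine hs (allB_intro (fun j ↦ ?_))
        rcases Nat.lt_or_ge j 300 with hj | hj
        · have hl : L2 (l3 ⟨j, hj⟩) = ((k : S1) : fourRu) • L2 (l3 ⟨j, hj⟩) := by rw [← L2_smul, hfix]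
          have hsig := sigc_smul ((k : S1) : fourRu) (L2 (l3 ⟨j, hj⟩)) b
          rw [← hl, ← hy] at hsig
          rw [Bool.or_eq_true]
          refine Or.inr ?_
          rw [show l2 (Dat.l3T.get 16 j) = (L2 (l3 ⟨j, hj⟩)).val from
            congrArg l2 (Nat.mod_eq_of_lt (l3_facts ⟨j, hj⟩).1).symm]
          rw [show l2 y.val = (L2 y).val from rfl, hsig]
          exact Nat.beq_refl _
        · rw [Bool.or_eq_true]; exact Or.inl (Nat.ble_eq_true_of_le hj)
    have h4 : (k : S1) • M4 = M4 := by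
      obtain ⟨m, hm⟩ := image_L2 (k : S1).2 sig1_base.2.1
      have a2 := fix_sigc g2 B4
      have a3 := fix_sigc g3 B4
      rw [← hm] at a2 a3
      change sigc Dat.base2 (l2 m.val) = sigc Dat.base2 Dat.base4 at a2
      change sigc Dat.base3 (l2 m.val) = sigc Dat.base3 Dat.base4 at a3
      have := allB_spec_zero level4_ok (show 2304 ≤ 2 ^ 12 by norm_num) m.isLt
      simp only [Bool.or_eq_true, Bool.not_eq_true', Bool.and_eq_false_iff, List.any_eq_true] at this
      rcases this with h | (h | h) | ⟨y, hy, hym⟩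
      · exact absurd (Nat.le_of_ble_eq_true h) (by omega)
      · rw [show Nat.beq _ _ = true from (congrArg (Nat.beq · _) a2).trans (Nat.beq_refl _)] at h
        exact Bool.noConfusion h
      · rw [show Nat.beq _ _ = true from (congrArg (Nat.beq · _) a3).trans (Nat.beq_refl _)] at h
        exact Bool.noConfusion h
      · have hs := List.all_eq_true.1 small_levels.2.2.1 y hy
        rw [Nat.eq_of_beq_eq_true hym] at hs
        exact smul_pos (by rw [show L2 M4 = B4 from pb_L2.2.2.1, ← hm]; exact sep B4 m hs hm)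
    have g4 := fix_base_pos pb_L2.2.2.1 h4
    have h5 : (k : S1) • M5 = M5 := by
      obtain ⟨m, hm⟩ := image_L2 (k : S1).2 sig1_base.2.2
      have a2 := fix_sigc g2 B5
      have a3 := fix_sigc g3 B5
      have a4 := fix_sigc g4 B5
      rw [← hm] at a2 a3 a4
      change sigc Dat.base2 (l2 m.val) = sigc Dat.base2 Dat.base5 at a2
      change sigc Dat.base3 (l2 m.val) = sigc Dat.base3 Dat.base5 at a3
      change sigc Dat.base4 (l2 m.val) = sigc Dat.base4 Dat.base5 at a4
      have := allB_spec_zero level5_ok (show 2304 ≤ 2 ^ 12 by norm_num) m.isLt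
      simp only [Bool.or_eq_true, Bool.not_eq_true', Bool.and_eq_false_iff, List.any_eq_true] at this
      rcases this with h | (h | h | h) | ⟨y, hy, hym⟩
      · exact absurd (Nat.le_of_ble_eq_true h) (by omega)
      · rw [show Nat.beq _ _ = true from (congrArg (Nat.beq · _) a2).trans (Nat.beq_refl _)] at h
        exact Bool.noConfusion h
      · rw [show Nat.beq _ _ = true from (congrArg (Nat.beq · _) a3).trans (Nat.beq_refl _)] at h
        exact Bool.noConfusion h
      · rw [show Nat.beq _ _ = true from (congrArg (Nat.beq · _) a4).trans (Nat.beq_refl _)] at h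
        exact Bool.noConfusion h
      · have hs := List.all_eq_true.1 small_levels.2.2.2 y hy
        rw [Nat.eq_of_beq_eq_true hym] at hs
        exact smul_pos (by rw [show L2 M5 = B5 from pb_L2.2.2.2, ← hm]; exact sep B5 m hs hm)
    exact pos_eq_one h2 h3 h4 h5

theorem Hh_simple : IsSimpleGroup Hh := by
  refine Abs.H_simple (X := orbit Hh M3) card_T.2.1 ⟨hg 0, hg_Hh 0⟩ ⟨hg 1, hg_Hh 1⟩ ?_ ?_ ?_ ?_
    ⟨M3, mem_orbit_self M3⟩ ?_
  · haveI : Fact (Nat.Prime 13) := ⟨by norm_num⟩
    exact orderOf_eq_prime (Subtype.ext hg_pow.1) fun e ↦ hg_pow.2.2.1 (congrArg Subtype.val e)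
  · haveI : Fact (Nat.Prime 3) := ⟨Nat.prime_three⟩
    exact orderOf_eq_prime (Subtype.ext hg_pow.2.1) fun e ↦ hg_pow.2.2.2 (congrArg Subtype.val e)
  · exact closure_top (hg_Hh 0) (mul_mem (mul_mem (hg_Hh 1) (hg_Hh 0)) (inv_mem (hg_Hh 1))) gen_words.1
  · exact closure_top (hg_Hh 1) (mul_mem (mul_mem (hg_Hh 0) (hg_Hh 1)) (inv_mem (hg_Hh 0))) gen_words.2
  · rintro ⟨x, ⟨t, ht⟩, rfl⟩
    constructor
    · intro e
      refine Subtype.ext ?_
      obtain ⟨j, hj⟩ := Hh_l3 ht
      have e' : hg 0 • (t • M3) = t • M3 := congrArg Subtype.val e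
      rw [← hj] at e'
      show t • M3 = M3
      rw [← hj]
      have hc := allB_spec_zero h1fix3_ok (show 300 ≤ 2 ^ 9 by norm_num) j.isLt
      simp only [Bool.or_eq_true, Bool.not_eq_true'] at hc
      have hv := (hg_val 0 (by norm_num) (l3 j)).symm.trans (congrArg Fin.val e')
      have hl : (l3 j).val = Dat.l3T.get 16 j.val := Nat.mod_eq_of_lt (l3_facts j).1
      rw [hl] at hv
      rcases hc with h | h | h
      · exact absurd (Nat.le_of_ble_eq_true h) (by omega)
      · rw [hv, show Nat.beq _ _ = true from Nat.beq_refl _] at h; exact Bool.noConfusion h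
      · exact Fin.ext (hl.trans (Nat.eq_of_beq_eq_true h))
    · intro e
      rw [e]
      exact Subtype.ext (Fin.ext ((hg_val 0 (by norm_num) M3).trans hMoves_ok.2.2.1))

theorem mem_St_iff (t : S1) : t ∈ St ↔ t • M2 = M2 := mem_stabilizer_iff

theorem stab_T_iff (t : T) : t ∈ stabilizer T M2 ↔ (t : S1) ∈ Hh := by
  rw [mem_stabilizer_iff, ← card_T.2.2, Subgroup.mem_inf, mem_St_iff]
  exact ⟨fun h ↦ ⟨t.2, h⟩, fun h ↦ h.2⟩

theorem Hh_le_T : Hh ≤ T := fun _ h ↦ (Subgroup.mem_inf.1 (Hh_le h)).1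

theorem stabilizer_eq_comap : stabilizer T M2 = Hh.subgroupOf T :=
  Subgroup.ext fun t ↦ (stab_T_iff t).trans Subgroup.mem_subgroupOf.symm

theorem stabilizer_T_equiv : Nonempty (stabilizer T M2 ≃* Hh) :=
  ⟨(MulEquiv.subgroupCongr stabilizer_eq_comap).trans (Subgroup.subgroupOfEquivOfLe Hh_le_T)⟩

theorem clsSize_eq (t : PTree) (c : ℕ) : ∀ n, clsSize t n c = ((Finset.range n).filter fun i ↦ tCls t i = c).card
  | 0 => rfl
  | n + 1 => by
    show cond (Nat.beq (tCls t n) c) (clsSize t n c + 1) (clsSize t n c) = _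
    rw [clsSize_eq t c n, Finset.range_add_one, Finset.filter_insert]
    cases h : Nat.beq (tCls t n) c with
    | true => rw [if_pos (Nat.eq_of_beq_eq_true h), cond_true, Finset.card_insert_of_notMem (by simp)]
    | false => rw [if_neg fun e ↦ by rw [e, show Nat.beq c c = true from Nat.beq_refl c] at h; exact Bool.noConfusion h]; rfl

/-- The size of a union of classes. -/
theorem card_union {n k : ℕ} (t : PTree) (P : ℕ → Bool) (B : Set (Fin n)) (hk : ∀ i < n, tCls t i < k)
    (hB : ∀ m : Fin n, m ∈ B ↔ P (tCls t m.val) = true) :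
    B.ncard = ∑ c ∈ Finset.range k, bif P c then clsSize t n c else 0 := by
  classical
  have e : B.ncard = ((Finset.range n).filter fun i ↦ P (tCls t i) = true).card := by
    rw [← Set.ncard_coe_finset]
    refine Set.ncard_congr (fun m _ ↦ m.val) (fun m hm ↦ ?_) (fun _ _ _ _ h ↦ Fin.ext h) (fun i hi ↦ ?_)
    · simp only [Finset.coe_filter, Finset.mem_range, Set.mem_setOf_eq]
      exact ⟨m.isLt, (hB m).1 hm⟩
    · simp only [Finset.coe_filter, Finset.mem_range, Set.mem_setOf_eq] at hi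
      exact ⟨⟨i, hi.1⟩, (hB _).2 hi.2, rfl⟩
  rw [e, Finset.card_eq_sum_card_fiberwise (f := tCls t) (t := Finset.range k) (fun i hi ↦ by
    simp only [Finset.coe_filter, Finset.mem_range, Set.mem_setOf_eq] at hi
    exact Finset.mem_coe.2 (Finset.mem_range.2 (hk i hi.1)))]
  refine Finset.sum_congr rfl fun c _ ↦ ?_
  rw [Finset.filter_filter, clsSize_eq]
  cases hc : P c with
  | false =>
    rw [cond_false, Finset.card_eq_zero, Finset.filter_eq_empty_iff]
    rintro i _ ⟨h1, h2⟩
    rw [h2, hc] at h1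
    exact Bool.noConfusion h1
  | true =>
    rw [cond_true]
    refine congrArg Finset.card (Finset.filter_congr fun i _ ↦ ⟨fun h ↦ h.2, fun h ↦ ⟨by rw [h, hc], h⟩⟩)

theorem treeH_lt {i : ℕ} (hi : i < 2304) : tCls Dat.treeH i < 7 := by
  obtain ⟨_, _, hr, _⟩ := treeH_class ⟨i, hi⟩
  by_contra hcon
  rw [List.getD_eq_default _ _ (rootsH_ok.1 ▸ not_lt.1 hcon)] at hr
  omega

/-- **The index two subgroup is simple.** -/
theorem T_simple : IsSimpleGroup T := by
  classical
  obtain ⟨e⟩ := stabilizer_T_equiv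
  haveI := Hh_simple
  have hs : IsSimpleGroup (stabilizer T M2) := e.isSimpleGroup
  refine Abs.T_simple (X := Fin 2304) (Nat.card_fin _) card_T.1 M2 hs ((Nat.card_congr e.toEquiv).trans card_T.2.1)
    ⟨hg 0, hg_mem 0⟩ ((stab_T_iff _).2 (hg_Hh 0)) ?_ ?_ ?_
  · haveI : Fact (Nat.Prime 13) := ⟨by norm_num⟩
    exact orderOf_eq_prime (Subtype.ext hg_pow.1) fun e ↦ hg_pow.2.2.1 (congrArg Subtype.val e)
  · have h := h1fix_ok
    simp only [Bool.and_eq_true, decide_eq_true_eq] at h
    refine le_trans (Set.ncard_le_ncard (t := {x : Fin 2304 | x.val ∈ Dat.h1fix}) ?_ (Set.toFinite _)) ?_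
    · intro x hx
      have hv : stepH 0 x.val = x.val :=
        (hg_val 0 (by norm_num) x).symm.trans (congrArg Fin.val (show hg 0 • x = x from hx))
      have := allB_spec_zero h.1 (show 2304 ≤ 2 ^ 12 by norm_num) x.isLt
      simp only [Bool.or_eq_true, Bool.not_eq_true', List.any_eq_true] at this
      rcases this with h' | h' | ⟨y, hy, hye⟩
      · exact absurd (Nat.le_of_ble_eq_true h') (by omega)
      · rw [hv, show Nat.beq _ _ = true from Nat.beq_refl _] at h'; exact Bool.noConfusion h'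
      · show x.val ∈ Dat.h1fix
        rw [← Nat.eq_of_beq_eq_true hye]
        exact hy
    · rw [← Set.ncard_image_of_injective _ Fin.val_injective]
      refine le_trans (Set.ncard_le_ncard (t := (Dat.h1fix.toFinset : Set ℕ)) ?_ (Set.toFinite _)) ?_
      · rintro _ ⟨x, hx, rfl⟩
        exact List.mem_toFinset.2 hx
      · rw [Set.ncard_coe_finset]
        exact le_trans (List.toFinset_card_le _) (le_of_eq (Nat.eq_of_beq_eq_true h.2))
  · intro B hB hinv hdvd
    have hroot : ∀ c, Dat.rootsH.getD c 2304 < 2304 → c < 7 := fun c h ↦ by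
      by_contra hcon
      rw [List.getD_eq_default _ _ (rootsH_ok.1 ▸ not_lt.1 hcon)] at h
      omega
    set P : ℕ → Bool := fun c ↦ decide (∃ hr : Dat.rootsH.getD c 2304 < 2304, (⟨_, hr⟩ : Fin 2304) ∈ B)
      with hP
    have hiff : ∀ m : Fin 2304, m ∈ B ↔ P (tCls Dat.treeH m.val) = true := by
      intro m
      obtain ⟨t, ht, hr, et⟩ := treeH_class m
      have hst : (⟨t, Hh_le_T ht⟩ : T) ∈ stabilizer T M2 := (stab_T_iff _).2 ht
      rw [hP, decide_eq_true_iff]
      constructor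
      · intro hm
        refine ⟨hr, ?_⟩
        have := hinv _ (inv_mem hst) m hm
        rwa [show (⟨t, Hh_le_T ht⟩ : T)⁻¹ • m = (⟨_, hr⟩ : Fin 2304) from
          inv_smul_eq_iff.2 et.symm] at this
      · rintro ⟨_, hm⟩
        have := hinv _ hst _ hm
        rwa [show (⟨t, Hh_le_T ht⟩ : T) • (⟨_, hr⟩ : Fin 2304) = m from et] at this
    set s := maskN P 7 with hs'
    have hslt : s < 128 := Nat.lt_pow_two_of_testBit (n := 7) s fun i hi ↦ by
      rw [hs', testBit_maskN, decide_eq_false (by omega)]; rfl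
    have hbit : ∀ c < 7, s.testBit c = P c := fun c hc ↦ by
      rw [hs', testBit_maskN, decide_eq_true hc, Bool.true_and]
    have hr0 : Dat.rootsH.getD 0 2304 = Dat.pb2 := by
      rw [List.getD_eq_getElem _ _ (by rw [rootsH_ok.1]; norm_num),
        ← List.getD_eq_getElem _ 0 (by rw [rootsH_ok.1]; norm_num)]
      exact rootsH_ok.2.1
    have hP0 : P 0 = true := by
      rw [hP, decide_eq_true_iff]
      refine ⟨lt_of_eq_of_lt hr0 M2.isLt, ?_⟩
      have e : (⟨Dat.rootsH.getD 0 2304, lt_of_eq_of_lt hr0 M2.isLt⟩ : Fin 2304) = M2 := Fin.ext hr0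
      rw [e]
      exact hB
    have hsum : ((List.range 7).map fun c ↦ bif Nat.testBit s c then clsSize Dat.treeH 2304 c else 0).sum =
        B.ncard := by
      rw [card_union Dat.treeH P B (fun i hi ↦ treeH_lt hi) hiff]
      show _ = ((List.range 7).map fun c ↦ bif P c then clsSize Dat.treeH 2304 c else 0).sum
      refine congrArg List.sum (List.map_congr_left fun c hc ↦ ?_)
      rw [hbit c (List.mem_range.1 hc)]
    rcases sizesH_ok ⟨s, hslt⟩ (by rw [hbit 0 (by norm_num), hP0]) (hsum ▸ hdvd) with h | h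
    · refine Or.inl (Set.eq_singleton_iff_unique_mem.2 ⟨hB, fun m hm ↦ ?_⟩)
      have hc := (hiff m).1 hm
      have hlt := treeH_lt m.isLt
      rw [← hbit _ hlt, show s = 1 from h, show (1 : ℕ) = 2 ^ 0 from rfl, Nat.testBit_two_pow,
        decide_eq_true_iff] at hc
      obtain ⟨t, ht, hr, et⟩ := treeH_class m
      rw [← et, show (⟨_, hr⟩ : Fin 2304) = M2 from Fin.ext ((congrArg (Dat.rootsH.getD · 2304) hc.symm).trans hr0)]
      exact Hh_fix2 ht
    · refine Or.inr (Set.eq_univ_of_forall fun m ↦ (hiff m).2 ?_)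
      have hlt := treeH_lt m.isLt
      rw [← hbit _ hlt, show s = 2 ^ 7 - 1 from h, Nat.testBit_two_pow_sub_one]
      exact decide_eq_true hlt

end Cfsg.Agent.RuModel
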